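import Cfsg.Agent.H2.MinU.S3.Cases
import Cfsg.Agent.H2.MinU.Four.Final
import Cfsg.Agent.H76.Singer3

/-!
The minimal index of `PSU 3`.
-/

set_option autoImplicit false

namespace Cfsg.Agent.H2.MinU.S3

open Matrix MulAction Cfsg.Agent.H2.MinU

variable {F : Type*} [Field F] [Fintype F] {q : ℕ} {D : Dat F q}
  {H : Subgroup (Cfsg.SU (2 + 1) F q)}

/-- The elements of order eleven. -/
lemma count_radical (hT : ∀ x : X D, ∃ h ∈ H, h • x0 D = x) (n : ℕ) (hn : ¬ Nat.card (Zs D H) * Nat.card (As D H) = 0)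
    (hpow : ∀ u ∈ Qg D 1, u ∈ H → u ^ n = 1) :
    (q ^ 3 + 1) * (Nat.card (Zs D H) * Nat.card (As D H) - 1) ≤ Nat.card {g : H // g ^ n = 1 ∧ g ≠ 1} := by
  classical
  choose h hh hx using hT
  let S := {u : Qg D 1 // u.1 ∈ H ∧ u ≠ 1}
  have hS : Nat.card S = Nat.card (Zs D H) * Nat.card (As D H) - 1 := by
    rw [← card_radical D H]
    have e : Nat.card S = ((H.subgroupOf (Qg D 1) : Set (Qg D 1)) \ {1}).ncard := by
      rw [← Nat.card_coe_set_eq]; rfl
    rw [e, Set.ncard_sdiff_singleton_of_mem (H.subgroupOf (Qg D 1)).one_mem, ← Nat.card_coe_set_eq]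
    rfl
  rw [← hS, ← card_X D, ← Nat.card_prod]
  refine Nat.card_le_card_of_injective (fun p : X D × S =>
    (⟨⟨h p.1 * p.2.1.1 * (h p.1)⁻¹, H.mul_mem (H.mul_mem (hh _) p.2.2.1) (H.inv_mem (hh _))⟩, ?_, ?_⟩ :
      {g : H // g ^ n = 1 ∧ g ≠ 1})) ?_
  · refine Subtype.ext ?_
    rw [SubmonoidClass.coe_pow, conj_pow, hpow _ p.2.1.2 p.2.2.1, mul_one, mul_inv_cancel, OneMemClass.coe_one]
  · intro e
    exact p.2.2.2 (Subtype.ext (conj_eq_one_iff.mp (congrArg Subtype.val e)))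
  · intro p p' e
    have e' : h p.1 * p.2.1.1 * (h p.1)⁻¹ = h p'.1 * p'.2.1.1 * (h p'.1)⁻¹ :=
      congrArg (fun g : {g : H // g ^ n = 1 ∧ g ≠ 1} => g.1.1) e
    have hfix : ∀ p : X D × S, (h p.1 * p.2.1.1 * (h p.1)⁻¹) • p.1 = p.1 := fun p => by
      have : (p.2.1.1) • x0 D = x0 D := (fix_x0 D).mpr (Qg_le_pst D p.2.1.2)
      calc (h p.1 * p.2.1.1 * (h p.1)⁻¹) • p.1 = (h p.1 * p.2.1.1 * (h p.1)⁻¹) • (h p.1 • x0 D) := by rw [hx]
        _ = _ := by rw [mul_smul, mul_smul, inv_smul_smul, this, hx]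
    have h1 := hfix p'
    rw [← e', mul_smul, mul_smul, ← eq_inv_smul_iff] at h1
    have h2 := Q_fix D p.2.1.2 (fun e => p.2.2.2 (Subtype.ext e)) h1
    have hp : p.1 = p'.1 := by rw [← hx p.1, ← h2, smul_inv_smul]
    rw [hp] at e'
    exact Prod.ext hp (Subtype.ext (Subtype.ext (mul_left_cancel (mul_right_cancel e'))))

variable (D) in
/-- Prime powers in small ranges. -/
lemma q_cases (hF : Fintype.card F = q ^ 2) : IsPrimePow q := by
  obtain ⟨p, k, hp, -, hk, hpq⟩ := H3.exists_q_eq_pow hF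
  rw [hpq]
  exact hp.isPrimePow.pow (by rintro rfl; have := H3.two_le_q hF; rw [pow_zero] at hpq; omega)

lemma not_pp_six : ¬ IsPrimePow 6 := by
  rw [isPrimePow_nat_iff_bounded]
  decide

lemma arith_full {q t d : ℕ} (hodd : ¬ 2 ∣ q) (h3 : 3 ∣ q + 1) (h5 : q ≠ 5) (hq : 3 ≤ q) (hqt : q ≤ t)
    (h3t : t ∣ 3 * (q - 1)) (h2t : 2 ∣ t) (htd : t ∣ 6 * d) (hd0 : 0 < d) (hd5 : d ≤ 5)
    (h17 : ¬ (q = 17 ∧ d = 4)) : q = 11 ∧ t = 30 := by
  have ht := Nat.le_of_dvd (by omega) htd
  have hr : q = 11 ∨ q = 17 ∨ q = 23 ∨ q = 29 := by omega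
  rcases hr with rfl | rfl | rfl | rfl <;> interval_cases d <;> interval_cases t <;> omega

lemma arith_two {q a t : ℕ} (hq : q = 4 ∨ q = 8) (ha : a ∣ q ^ 2) (ha4 : a ≤ 4) (hineq : q ^ 2 - 1 ≤ 2 * a * t)
    (ht : t ∣ q + 1) (hA : t ∣ a - 1 ∨ 3 ∣ q + 1) : q = 8 ∧ a = 4 ∧ t = 9 := by
  have ht9 := Nat.le_of_dvd (by omega) ht
  rcases hq with rfl | rfl <;> norm_num at ha hineq ht9 ht hA ⊢ <;> interval_cases a <;>
    interval_cases t <;> omega

lemma arith_nine {a t : ℕ} (ha : a ∣ 81) (ha9 : a ≤ 9) (hineq : 80 ≤ 3 * a * t) (ht : t ∣ 20)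
    (hA : t ∣ a - 1) : a = 9 ∧ t = 4 := by
  have ht20 := Nat.le_of_dvd (by norm_num) ht
  interval_cases a <;> interval_cases t <;> omega

set_option maxHeartbeats 1000000 in
/-- A subgroup containing the centre, of index at most `q ^ 3`, is everything. -/
theorem top_of_center (hq : 3 ≤ q) (h5 : q ≠ 5) (H : Subgroup (Cfsg.SU (2 + 1) F q))
    (hcen : Subgroup.center (Cfsg.SU (2 + 1) F q) ≤ H) (hN : H.index ≤ q ^ 3) (D : Dat F q) : H = ⊤ := by
  classical
  have hT := transitive_of_index_le D H hN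
  have hpp : IsPrimePow q := q_cases D.hF
  obtain ⟨p, k, hp, hcp, -, hpq⟩ := H3.exists_q_eq_pow D.hF
  haveI := Fact.mk hp
  have hk0 : k ≠ 0 := by rintro rfl; rw [pow_zero] at hpq; omega
  have hcard := card_H D H hT
  obtain ⟨z, hzdef⟩ : ∃ z, z = Nat.card (Zs D H) := ⟨_, rfl⟩
  obtain ⟨a, hadef⟩ : ∃ a, a = Nat.card (As D H) := ⟨_, rfl⟩
  obtain ⟨t, htdef⟩ : ∃ t, t = Nat.card (Ks D H) := ⟨_, rfl⟩
  rw [← hzdef, ← hadef, ← htdef] at hcard
  have hineq : q ^ 2 - 1 ≤ z * a * t := by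
    have h := H.card_mul_index
    rw [card_SU3 D.hF, hcard] at h
    refine Nat.le_of_mul_le_mul_left ?_ (show 0 < q ^ 3 * (q ^ 3 + 1) from
      Nat.mul_pos (Nat.pow_pos (by omega)) (by omega))
    rw [← h, mul_comm ((q ^ 3 + 1) * (z * a * t)), ← mul_assoc, ← mul_assoc, ← mul_assoc]
    exact le_trans (Nat.mul_le_mul_right _ (Nat.mul_le_mul_right _ (Nat.mul_le_mul_right _
      (Nat.mul_le_mul_right _ hN)))) (le_of_eq (by ring))
  by_cases hzq : q ≤ z
  · exact eq_top_of_full D H hT hq (hzdef ▸ hzq)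
  exfalso
  have hz0 : 0 < z := hzdef ▸ Nat.card_pos
  have ha0 : 0 < a := hadef ▸ Nat.card_pos
  have hadvd : a ∣ q ^ 2 := by
    have h := AddSubgroup.card_addSubgroup_dvd_card (As D H)
    rw [← hadef, Nat.card_eq_fintype_card (α := F), D.hF] at h
    exact h
  have hzdvd : z ∣ q := by
    have := AddSubgroup.card_dvd_of_le (show Zs D H ≤ skew D.hF from zS_le _)
    rwa [card_skew, ← hzdef] at this
  have hsingle := H76.Singer3.no_sub_singer D.hF H hcen
  have h20_of : 2 ∣ q → (2 : F) = 0 := by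
    intro h
    have hp2 : p = 2 := ((Nat.prime_dvd_prime_iff_eq Nat.prime_two hp).mp (Nat.prime_two.dvd_of_dvd_pow (hpq ▸ h))).symm
    subst hp2
    exact CharP.ofNat_eq_zero' F 2 2 dvd_rfl
  have hdA := dvd_A D H
  rw [← hadef, ← htdef] at hdA
  have hdZ := dvd_Z D H
  rw [← hzdef, ← htdef] at hdZ
  rcases Nat.lt_or_ge z 2 with hz1 | hz2
  · -- no transvections
    obtain rfl : z = 1 := by omega
    rw [one_mul] at hineq hcard
    have haq : a ≤ q := by
      rcases card_As_le D H with h | h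
      · rw [hadef]; exact h
      · rw [← hzdef, ← hadef] at h; omega
    rcases Nat.lt_or_ge a 2 with ha1 | ha2
    · obtain rfl : a = 1 := by omega
      rw [one_mul] at hineq hcard
      have hKle : t ≤ q ^ 2 - 1 := by
        rw [htdef]
        refine (Nat.card_le_card_of_injective _ (Subgroup.subtype_injective (Ks D H))).trans (le_of_eq ?_)
        rw [Nat.card_units, Nat.card_eq_fintype_card, D.hF]
      have hte : t = q ^ 2 - 1 := le_antisymm hKle hineq
      have hKtop : Ks D H = ⊤ := Subgroup.eq_top_of_card_eq _ (by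
        rw [← htdef, hte, Nat.card_units, Nat.card_eq_fintype_card, D.hF])
      rcases Nat.lt_or_ge q 4 with hq4 | hq4
      · obtain rfl : q = 3 := by omega
        exact hsingle (Or.inl ⟨rfl, by rw [hcard, hte]; norm_num⟩)
      obtain ⟨h4, h6⟩ := line_trivial hT hq4 hzdef.symm hadef.symm hKtop
      rcases (show q = 4 ∨ q = 5 ∨ q = 6 by omega) with rfl | rfl | rfl
      · exact h4 rfl
      · exact h5 rfl
      · exact not_pp_six hpp
    · have hodd : ¬ 2 ∣ q := fun h => by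
        have := (card_As_even D H (h20_of h)).1 hzdef.symm
        omega
      have h20 : (2 : F) ≠ 0 := fun h => by
        refine hodd (hpq ▸ dvd_pow ?_ hk0)
        have := (CharP.cast_eq_zero_iff F p 2).mp (by exact_mod_cast h)
        rw [((Nat.prime_dvd_prime_iff_eq hp Nat.prime_two).mp this)]
      have h3 : 3 ∣ q + 1 := by
        by_contra h3
        have ht := Nat.le_of_dvd (by omega) (hdA.2 h3)
        have h1 : a * t ≤ q * (q - 1) := Nat.mul_le_mul haq (ht.trans (by omega))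
        have h2 : q * (q - 1) + q = q ^ 2 := by
          rw [pow_two, ← Nat.mul_succ]; congr 1; omega
        omega
      have hae : a = q := by
        obtain ⟨i, -, hi⟩ := (Nat.dvd_prime_pow hp).mp (show a ∣ p ^ (k * 2) by rw [pow_mul, ← hpq]; exact hadvd)
        rcases Nat.lt_or_ge i k with hik | hik
        · exfalso
          have hp3 : 3 ≤ p := by
            have := hp.two_le
            by_contra h
            have hp2 : p = 2 := by omega
            exact hodd (by rw [hpq, hp2]; exact dvd_pow_self 2 hk0)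
          have ha3 : 3 * a ≤ q := by
            rw [hi, hpq]
            calc 3 * p ^ i ≤ p * p ^ i := Nat.mul_le_mul_right _ hp3
              _ ≤ p ^ k := by rw [← pow_succ']; exact Nat.pow_le_pow_right hp.pos hik
          have ht := Nat.le_of_dvd (Nat.mul_pos (by omega) (by norm_num)) hdA.1
          have h1 : 3 * (a * t) ≤ (3 * a) * (3 * a) :=
            calc 3 * (a * t) ≤ 3 * (a * ((a - 1) * 3)) := Nat.mul_le_mul_left _ (Nat.mul_le_mul_left _ ht)
              _ ≤ 3 * (a * (a * 3)) := Nat.mul_le_mul_left _ (Nat.mul_le_mul_left _ (Nat.mul_le_mul_right _ (by omega)))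
              _ = _ := by ring
          have h2 : (3 * a) * (3 * a) ≤ q ^ 2 := by rw [pow_two]; exact Nat.mul_le_mul ha3 ha3
          have h9 : 9 ≤ q ^ 2 := Nat.pow_le_pow_left hq 2
          omega
        · exact le_antisymm haq (by rw [hi, hpq]; exact Nat.pow_le_pow_right hp.pos hik)
      obtain ⟨h3t, h2t, d, hd0, htd, hd5, h17⟩ := line_full hT hq hodd h20 hzdef.symm (hadef.symm.trans hae)
      rw [← htdef] at h3t h2t htd
      rw [hae] at hineq hcard
      have htq : q ≤ t := by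
        by_contra h
        have h1 : q * t + q ≤ q * q := by
          rw [← Nat.mul_succ]; exact Nat.mul_le_mul_left _ (by omega)
        rw [pow_two] at hineq
        omega
      obtain ⟨rfl, rfl⟩ := arith_full hodd h3 h5 hq htq h3t h2t htd hd0 hd5 h17
      have hrad : Nat.card (H.subgroupOf (Qg D 1)) = 11 := by
        rw [card_radical, ← hzdef, ← hadef, hae, one_mul]
      refine hsingle (Or.inr (Or.inr (Or.inr ⟨rfl, hcard, ?_⟩)))
      have h1 := count_radical hT 11 (by rw [← hzdef, ← hadef]; omega) fun u hu huH => by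
        have h := pow_card_eq_one' (G := H.subgroupOf (Qg D 1)) (x := ⟨⟨u, hu⟩, huH⟩)
        rw [hrad] at h
        exact congrArg (fun x : H.subgroupOf (Qg D 1) => x.1.1) h
      rw [← hzdef, ← hadef, hae] at h1
      exact h1
  · -- with transvections
    have htr := trans_big hT (hzdef ▸ hz2)
    have hlt : z < q := by omega
    rcases line_result_big htr (hzdef ▸ hz2) (hzdef ▸ hlt) with hz | ⟨hz, hq9⟩
    · rw [← hzdef] at hz
      subst hz
      have h20 := h20_of hzdvd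
      have ha4 : a ≤ 4 := hadef ▸ (card_As_even D H h20).2 hzdef.symm
      rw [show (2 - 1) * (q + 1) = q + 1 by omega] at hdZ
      have htle := Nat.le_of_dvd (by omega) hdZ
      have h8 : 2 * a * t ≤ 8 * (q + 1) := Nat.mul_le_mul (by omega) htle
      have hq9 : q ≤ 9 := by
        by_contra h
        have h1 : 10 * q ≤ q ^ 2 := by rw [pow_two]; exact Nat.mul_le_mul_right _ (by omega)
        omega
      have hq6 : q ≠ 6 := fun h => not_pp_six (h ▸ hpp)
      have hA : t ∣ a - 1 ∨ 3 ∣ q + 1 := (em (3 ∣ q + 1)).symm.imp_left hdA.2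
      obtain ⟨rfl, rfl, rfl⟩ := arith_two (by omega) hadvd ha4 hineq hdZ hA
      exact hsingle (Or.inr (Or.inl ⟨rfl, hcard⟩))
    · rw [← hzdef] at hz
      subst hz hq9
      have ha9 : a ≤ 9 := by
        rcases card_As_le D H with h | h <;> rw [← hadef] at h
        · exact h
        · rw [← hzdef] at h; exact h
      obtain ⟨rfl, rfl⟩ := arith_nine hadvd ha9 hineq hdZ (hdA.2 (by norm_num))
      exact hsingle (Or.inr (Or.inr (Or.inl ⟨rfl, Or.inr hcard⟩)))

/-- The lower bound for `SU 3`. -/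
theorem su_three_bound (hF : Fintype.card F = q ^ 2) (hq : 3 ≤ q) (h5 : q ≠ 5)
    (H : Subgroup (Cfsg.SU (2 + 1) F q)) (hH : H ≠ ⊤) : q ^ 3 + 1 ≤ H.index := by
  by_contra hlt
  push Not at hlt
  obtain ⟨D⟩ := exists_dat hF
  set Z := Subgroup.center (Cfsg.SU (2 + 1) F q) with hZ
  have hpos : H.index ≠ 0 := Subgroup.index_ne_zero_of_finite
  have htop := top_of_center hq h5 (H ⊔ Z) le_sup_right
    (le_trans (Nat.le_of_dvd (by omega) (Subgroup.index_dvd_of_le le_sup_left)) (by omega)) D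
  obtain ⟨p, k, hp, hcp, -, hpq⟩ := H3.exists_q_eq_pow hF
  refine hH (eq_top_of_trans hF (by norm_num) (fun h => by omega) H fun v a hv0 hv ha => ?_)
  set e := E hF v 0 a with he
  have hep : e ^ p = 1 := by
    have hEl : ∀ n : ℕ, e ^ n = E hF v 0 (n • a) := by
      intro n
      induction n with
      | zero => rw [pow_zero, zero_smul, E_zero hF hv]
      | succ n ih =>
        rw [pow_succ, ih, he, E_mul hF (ok_zero hv ((skew hF).nsmul_mem ha n) hF) (ok_zero hv ha hF),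
          add_zero, hzero_r hF, sub_zero, succ_nsmul]
    rw [hEl, nsmul_eq_mul, CharP.cast_eq_zero, zero_mul, E_zero hF hv]
  have hmem : e ∈ H ⊔ Z := htop ▸ Subgroup.mem_top e
  haveI : Z.Normal := inferInstance
  obtain ⟨h, hh, z, hz, hze⟩ := Subgroup.mem_sup_of_normal_right.mp hmem
  obtain ⟨g, hg⟩ : ∃ g, g = Nat.gcd (2 + 1) (q + 1) := ⟨_, rfl⟩
  have hzg : z ^ g = 1 := by
    have h1 := pow_card_eq_one' (G := Z) (x := ⟨z, hz⟩)
    rw [H3.card_center_SU hF (by norm_num), ← hg] at h1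
    exact congrArg (fun x : Z => x.1) h1
  have heg : e ^ g ∈ H := by
    rw [← hze, (show Commute h z from (Subgroup.mem_center_iff.mp hz h)).mul_pow, hzg, mul_one]
    exact H.pow_mem hh g
  have hco : Nat.Coprime p g := by
    refine hp.coprime_iff_not_dvd.mpr fun hd => ?_
    have h1 : p ∣ q + 1 := hd.trans (hg ▸ Nat.gcd_dvd_right _ _)
    have h2 : p ∣ q := by
      rw [hpq]; exact dvd_pow_self p (by rintro rfl; rw [pow_zero] at hpq; omega)
    exact hp.not_dvd_one ((Nat.dvd_add_right h2).mp h1)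
  obtain ⟨w, -, hw⟩ : ∃ w, True ∧ (e ^ g) ^ w = e := by
    rcases eq_or_ne e 1 with h1 | h1
    · exact ⟨0, trivial, by rw [h1, pow_zero]⟩
    haveI := Fact.mk hp
    have hord : orderOf e = p := orderOf_eq_prime hep h1
    have hcg : Nat.Coprime (orderOf e) g := hord ▸ hco
    obtain ⟨w, hw⟩ := exists_pow_eq_self_of_coprime (Nat.Coprime.symm hcg)
    exact ⟨w, trivial, hw⟩
  rw [← hw]
  exact H.pow_mem heg w

/-- The minimal index of `PSU 3`. -/
theorem psu_three_min (hF : Fintype.card F = q ^ 2) (hq : 3 ≤ q) (h5 : q ≠ 5) :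
    (∀ H : Subgroup (Cfsg.PSU 3 F q), H ≠ ⊤ → q ^ 3 + 1 ≤ H.index) ∧
      ∃ H : Subgroup (Cfsg.PSU 3 F q), H.index = q ^ 3 + 1 := by
  obtain ⟨D⟩ := exists_dat hF
  refine psu_min (2 + 1) (fun H hH => su_three_bound hF hq h5 H hH) ⟨pst D 1, ?_, ?_⟩
  · intro g hg
    obtain ⟨l, hl⟩ := (H3.mem_center_SU_iff hF (by norm_num) g).mp hg
    refine ⟨l, fun h => act_ne_zero g D.p_ne ?_, hl _⟩
    show (g.1 : Matrix (Fin (2 + 1)) (Fin (2 + 1)) F) *ᵥ _ = 0
    rw [hl, h, zero_smul]
  · rw [index_pst D le_rfl, pts_three]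

end Cfsg.Agent.H2.MinU.S3
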