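import Cfsg.Agent.H2.MinU.S3.Borel

/-!
A transitive subgroup of `SU 3` seen at its base point: radical part, scalars, and their divisibilities.
-/

set_option autoImplicit false

namespace Cfsg.Agent.H2.MinU.S3

open Matrix MulAction Cfsg.Agent.H2.MinU

variable {F : Type*} [Field F] [Fintype F] {q : ℕ}

local notation "⟪" u ", " v "⟫" => Cfsg.hermForm _ F q u v

variable (D : Dat F q) (H : Subgroup (Cfsg.SU (2 + 1) F q))

/-- The transvection parameters of `H` at the base point. -/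
def Zs : AddSubgroup F := zS 1 D (QuotientGroup.mk 1 : Cfsg.SU (2 + 1) F q ⧸ H)

/-- The radical image of `H` at the base point, as field elements. -/
def As : AddSubgroup F :=
  (aS 1 D (QuotientGroup.mk 1 : Cfsg.SU (2 + 1) F q ⧸ H)).map
    (Pi.evalAddMonoidHom (fun _ : Fin 1 => F) 0)

/-- The scalars of `H` at the base point. -/
noncomputable def Ks : Subgroup Fˣ := (H.subgroupOf (pst D 1)).map (χ D)

lemma fix_coset {g : Cfsg.SU (2 + 1) F q} :
    g • (QuotientGroup.mk 1 : Cfsg.SU (2 + 1) F q ⧸ H) = QuotientGroup.mk 1 ↔ g ∈ H := by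
  show QuotientGroup.mk (g * 1) = (QuotientGroup.mk 1 : Cfsg.SU (2 + 1) F q ⧸ H) ↔ _
  rw [QuotientGroup.eq, mul_one, mul_one, H.inv_mem_iff]

lemma mem_Zs {a : F} : a ∈ Zs D H ↔ a + a ^ q = 0 ∧ El D (0 : Fin 1 → F) a ∈ H :=
  and_congr_right fun _ => fix_coset H

lemma mem_As {x : F} : x ∈ As D H ↔ ∃ a, OkW q (fun _ : Fin 1 => x) a ∧ El D (fun _ : Fin 1 => x) a ∈ H := by
  constructor
  · rintro ⟨w, ⟨a, ha, hfix⟩, rfl⟩
    have e : (fun _ : Fin 1 => w 0) = w := by funext i; fin_cases i; rfl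
    refine ⟨a, ?_⟩
    show OkW q (fun _ : Fin 1 => w 0) a ∧ El D (fun _ : Fin 1 => w 0) a ∈ H
    rw [e]
    exact ⟨ha, (fix_coset H).mp hfix⟩
  · rintro ⟨a, ha, hmem⟩
    exact ⟨fun _ => x, ⟨a, ha, (fix_coset H).mpr hmem⟩, rfl⟩

lemma mem_Ks {c : Fˣ} : c ∈ Ks D H ↔ ∃ g : pst D 1, g.1 ∈ H ∧ χ D g = c := by
  simp [Ks, Subgroup.mem_subgroupOf]

lemma card_As : Nat.card (As D H) = Nat.card (aS 1 D (QuotientGroup.mk 1 : Cfsg.SU (2 + 1) F q ⧸ H)) :=
  (Nat.card_congr (AddSubgroup.equivMapOfInjective _ (Pi.evalAddMonoidHom (fun _ : Fin 1 => F) 0)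
    (fun v w h => by funext i; fin_cases i; exact h)).toEquiv).symm

/-- The radical part of `H` at the base point. -/
theorem card_radical : Nat.card (H.subgroupOf (Qg D 1)) = Nat.card (Zs D H) * Nat.card (As D H) := by
  have hq := H3.two_le_q D.hF
  set ω : Cfsg.SU (2 + 1) F q ⧸ H := QuotientGroup.mk 1
  have h1 := card_orbit_Q (D := D) (m := 1) ω
  have h2 := card_orbit_mul_stab (Qg D 1) ω
  rw [card_Qg, ← h1] at h2
  have hne : Nonempty (orbit (Qg D 1) ω) := ⟨⟨ω, mem_orbit_self ω⟩⟩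
  have hpos : 0 < Nat.card (orbit (Qg D 1) ω) := Nat.card_pos
  rw [card_As, Zs, ← Nat.eq_of_mul_eq_mul_left hpos h2]
  exact Nat.card_congr (Equiv.subtypeEquivRight fun g => by
    rw [Subgroup.mem_subgroupOf, mem_stabilizer_iff]
    exact (fix_coset H).symm)

/-- The stabiliser of the base point in `H`. -/
theorem card_stab : Nat.card (H.subgroupOf (pst D 1)) =
    Nat.card (Zs D H) * Nat.card (As D H) * Nat.card (Ks D H) := by
  rw [← card_radical D H]
  set f := (χ D).comp (H.subgroupOf (pst D 1)).subtype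
  have h := f.ker.card_mul_index
  rw [Subgroup.index_ker, MonoidHom.range_comp, Subgroup.range_subtype] at h
  rw [← h]
  congr 1
  exact Nat.card_congr
    { toFun := fun g => ⟨⟨g.1.1.1, (χ_ker D g.1.1).mp g.2⟩, g.1.2⟩
      invFun := fun g => ⟨⟨⟨g.1.1, Qg_le_pst D g.1.2⟩, g.2⟩, (χ_ker D _).mpr g.1.2⟩
      left_inv := fun g => rfl
      right_inv := fun g => rfl }

variable (hT : ∀ x : X D, ∃ h ∈ H, h • x0 D = x)

include hT in
/-- The order of a transitive subgroup. -/
theorem card_H : Nat.card H = (q ^ 3 + 1) * (Nat.card (Zs D H) * Nat.card (As D H) * Nat.card (Ks D H)) := by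
  rw [← card_stab, ← card_X D]
  have h1 : Nat.card (orbit H (x0 D)) * Nat.card (stabilizer H (x0 D)) = Nat.card H := by
    rw [← Nat.card_prod]
    exact Nat.card_congr (MulAction.orbitProdStabilizerEquivGroup H (x0 D))
  rw [← h1]
  congr 1
  · rw [show orbit H (x0 D) = Set.univ from Set.eq_univ_of_forall fun x => by
      obtain ⟨h, hh, e⟩ := hT x; exact ⟨⟨h, hh⟩, e⟩]
    exact Nat.card_congr (Equiv.Set.univ _)
  · exact Nat.card_congr
      { toFun := fun g => ⟨⟨g.1.1, (fix_x0 D).mp g.2⟩, g.1.2⟩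
        invFun := fun g => ⟨⟨g.1.1, g.2⟩, (fix_x0 D).mpr g.1.2⟩
        left_inv := fun g => rfl
        right_inv := fun g => rfl }

include hT in
/-- A transitive subgroup with all transvections at the base point is everything. -/
theorem eq_top_of_full (hq : 3 ≤ q) (hz : q ≤ Nat.card (Zs D H)) : H = ⊤ := by
  classical
  have hfull : ∀ a : F, a + a ^ q = 0 → El D (0 : Fin 1 → F) a ∈ H := by
    intro a ha
    have e : Zs D H = skew D.hF := AddSubgroup.eq_of_le_of_card_ge (zS_le _) (by rw [card_skew]; exact hz)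
    exact ((mem_Zs D H).mp (show a ∈ Zs D H from e ▸ (ha : a ∈ skew D.hF))).2
  refine eq_top_of_trans D.hF (by norm_num) (fun h => by omega) H fun v a hv0 hv ha => ?_
  obtain ⟨g, hg⟩ : ∃ g : Cfsg.SU (2 + 1) F q, g • D.p 1 = v := by
    have : v ∈ orbit (Cfsg.SU (2 + 1) F q) (D.p 1) := by
      rw [orbit_eq_class D.hF (by norm_num) D.p_ne (Or.inr (by norm_num))]
      exact ⟨hv0, by rw [hv, D.p_iso]⟩
    exact this
  obtain ⟨h, hh, e⟩ := hT (g • x0 D)
  have hB : h⁻¹ * g ∈ pst D 1 := by rw [← fix_x0, mul_smul, ← e, inv_smul_smul]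
  obtain ⟨c, hc0, hc⟩ := hB
  have hv' : v = act h (c • D.p 1) := by
    rw [← hc, ← act_mul, mul_inv_cancel_left]; exact hg.symm
  have hok : Ok q (c • D.p 1) (0 : Fin (2 + 1) → F) a :=
    ok_zero (by rw [hsmul_l D.hF, hsmul_r D.hF, D.p_iso, mul_zero, mul_zero]) ha D.hF
  have e2 := E_conj D.hF h hok
  rw [act_zero] at e2
  rw [hv', ← e2]
  refine H.mul_mem (H.mul_mem hh ?_) (H.inv_mem hh)
  rw [E_smul D.hF hc0 hok, smul_zero, ← El_trans]
  refine hfull _ ?_
  rw [mul_pow, mul_pow, qq D.hF]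
  linear_combination (c * c ^ q) * ha

/-- A multiplicative group stabilising an additive one acts freely on its non-zero elements. -/
theorem free_dvd (L : Subgroup Fˣ) (Z : AddSubgroup F) (h : ∀ c ∈ L, ∀ a ∈ Z, (c : F) * a ∈ Z) :
    Nat.card L ∣ Nat.card Z - 1 := by
  classical
  set S : Set Fˣ := {u | (u : F) ∈ Z} with hS
  have hstab : S = (QuotientGroup.mk : Fˣ → Fˣ ⧸ L) ⁻¹' (QuotientGroup.mk '' S) := by
    refine Set.Subset.antisymm (Set.subset_preimage_image _ _) ?_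
    rintro u ⟨v, hv, e⟩
    have hm : v⁻¹ * u ∈ L := QuotientGroup.eq.mp e
    have := h _ hm _ hv
    have e2 : ((v⁻¹ * u : Fˣ) : F) * (v : F) = (u : F) := by
      rw [← Units.val_mul, mul_right_comm, inv_mul_cancel, one_mul]
    rw [e2] at this
    exact this
  have hcard : Nat.card S = Nat.card Z - 1 := by
    have e : Nat.card S = ((Z : Set F) \ {0}).ncard := by
      rw [← Nat.card_coe_set_eq]
      exact Nat.card_congr
        { toFun := fun u => ⟨(u.1 : F), u.2, u.1.ne_zero⟩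
          invFun := fun a => ⟨Units.mk0 a.1 a.2.2, a.2.1⟩
          left_inv := fun u => Subtype.ext (Units.ext rfl)
          right_inv := fun a => rfl }
    rw [e, Set.ncard_sdiff_singleton_of_mem Z.zero_mem, ← Nat.card_coe_set_eq]
    rfl
  rw [← hcard, hstab, Nat.card_congr (QuotientGroup.preimageMkEquivSubgroupProdSet L _), Nat.card_prod]
  exact dvd_mul_right _ _

/-- A group of units is controlled by a power map. -/
theorem card_dvd_map_pow (K : Subgroup Fˣ) (k n : ℕ)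
    (hn : ∀ c : Fˣ, c ^ k = 1 → c ^ n = 1) :
    Nat.card K ∣ Nat.card (K.map (powMonoidHom k)) * n := by
  set f := (powMonoidHom k : Fˣ →* Fˣ).comp K.subtype
  have h := f.ker.card_mul_index
  rw [Subgroup.index_ker, MonoidHom.range_comp, Subgroup.range_subtype] at h
  rw [← h, mul_comm]
  refine Nat.mul_dvd_mul_left _ ?_
  rw [← IsCyclic.exponent_eq_card (α := f.ker)]
  refine Monoid.exponent_dvd_of_forall_pow_eq_one fun c => ?_
  exact Subtype.ext (Subtype.ext (hn c.1.1 c.2))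

lemma exists_split {c : Fˣ} (hc : c ∈ Ks D H) :
    ∃ g ∈ H, ∃ (l : Lev D 1), ∃ u ∈ Qg D 1, g = l.1 * u ∧ cc l = c ∧
      ∀ w : Fin 1 → F, l • w = ((c : F) ^ q * (c : F) ^ (q - 1)) • w := by
  obtain ⟨g, hg, rfl⟩ := (mem_Ks D H).mp hc
  obtain ⟨l, hl, hl', -⟩ := exists_lev3 D (χ D g).ne_zero
  refine ⟨g.1, hg, l, l.1⁻¹ * g.1, ?_, by rw [mul_inv_cancel_left], hl, hl'⟩
  have e : χ D ((⟨l.1, lev_le_pst D l.2⟩ : pst D 1)⁻¹ * g) = 1 := by
    rw [map_mul, map_inv, inv_mul_eq_one]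
    refine Units.ext ?_
    rw [χ_val]
    exact hl
  exact (χ_ker D _).mp e

theorem Zs_stable {c : Fˣ} (hc : c ∈ Ks D H) {a : F} (ha : a ∈ Zs D H) :
    ((c ^ (q + 1) : Fˣ) : F) * a ∈ Zs D H := by
  obtain ⟨g, hg, l, u, hu, rfl, hl, -⟩ := exists_split D H hc
  have h := zS_lev (D := D) (u • (QuotientGroup.mk 1 : Cfsg.SU (2 + 1) F q ⧸ H)) l
  rw [← mul_smul, (fix_coset H).mpr hg, zS_smul_Q _ hu, hl] at h
  rw [Zs, h]
  refine ⟨a, ha, ?_⟩
  show (c : F) * (c : F) ^ q * a = _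
  push_cast
  ring

theorem As_stable {c : Fˣ} (hc : c ∈ Ks D H) {x : F} (hx : x ∈ As D H) :
    ((c ^ (2 * q - 1) : Fˣ) : F) * x ∈ As D H := by
  obtain ⟨g, hg, l, u, hu, rfl, -, hl⟩ := exists_split D H hc
  have h := aS_lev (D := D) (u • (QuotientGroup.mk 1 : Cfsg.SU (2 + 1) F q ⧸ H)) l
  rw [← mul_smul, (fix_coset H).mpr hg, aS_smul_Q _ hu] at h
  obtain ⟨w, hw, rfl⟩ := hx
  refine ⟨l • w, ?_, ?_⟩
  · rw [h]; exact AddSubgroup.smul_mem_pointwise_smul w l _ hw
  · rw [hl]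
    have hq := H3.two_le_q D.hF
    push_cast
    rw [show 2 * q - 1 = q + (q - 1) by omega, pow_add]
    rfl

include D in
lemma pow_A_one {c : Fˣ} (h : c ^ (2 * q - 1) = 1) :
    c ^ 3 = 1 ∧ (¬ 3 ∣ q + 1 → c = 1) := by
  classical
  have hq := H3.two_le_q D.hF
  have hcard : c ^ (q ^ 2 - 1) = 1 := by
    have := pow_card_eq_one' (G := Fˣ) (x := c)
    rwa [Nat.card_units, Nat.card_eq_fintype_card, D.hF] at this
  have h3 : c ^ 3 = 1 := by
    obtain ⟨r, rfl⟩ : ∃ r, q = r + 1 := ⟨q - 1, by omega⟩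
    have e : (2 * (r + 1) - 1) * (2 * (r + 1) + 1) = ((r + 1) ^ 2 - 1) * 4 + 3 := by
      rw [show 2 * (r + 1) - 1 = 2 * r + 1 by omega,
        show (r + 1) ^ 2 - 1 = r * r + 2 * r by rw [pow_two]; ring_nf; omega]
      ring
    calc c ^ 3 = c ^ (((r + 1) ^ 2 - 1) * 4 + 3) := by rw [pow_add, pow_mul, hcard, one_pow, one_mul]
      _ = 1 := by rw [← e, pow_mul, h, one_pow]
  refine ⟨h3, fun h31 => ?_⟩
  have hg : Nat.Coprime 3 (2 * q - 1) := by
    refine (Nat.prime_three.coprime_iff_not_dvd).mpr fun hd => h31 ?_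
    omega
  have := pow_gcd_eq_one.mpr ⟨h3, h⟩
  rwa [hg, pow_one] at this

/-- The scalars against the transvection parameters. -/
theorem dvd_Z : Nat.card (Ks D H) ∣ (Nat.card (Zs D H) - 1) * (q + 1) := by
  refine dvd_trans (card_dvd_map_pow (Ks D H) (q + 1) (q + 1) fun c h => h) (Nat.mul_dvd_mul_right ?_ _)
  refine free_dvd _ _ ?_
  rintro _ ⟨c, hc, rfl⟩ a ha
  exact Zs_stable D H hc ha

/-- The scalars against the radical image. -/
theorem dvd_A : Nat.card (Ks D H) ∣ (Nat.card (As D H) - 1) * 3 ∧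
    (¬ 3 ∣ q + 1 → Nat.card (Ks D H) ∣ Nat.card (As D H) - 1) := by
  have hmap : Nat.card ((Ks D H).map (powMonoidHom (2 * q - 1))) ∣ Nat.card (As D H) - 1 := by
    refine free_dvd _ _ ?_
    rintro _ ⟨c, hc, rfl⟩ a ha
    exact As_stable D H hc ha
  refine ⟨dvd_trans (card_dvd_map_pow (Ks D H) (2 * q - 1) 3 fun c h => (pow_A_one D h).1)
    (Nat.mul_dvd_mul_right hmap _), fun h3 => ?_⟩
  have := card_dvd_map_pow (Ks D H) (2 * q - 1) 1 fun c h => by rw [(pow_A_one D h).2 h3, one_pow]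
  rw [mul_one] at this
  exact this.trans hmap

/-- Commutators. -/
theorem comm_mem {x y : F} (hx : x ∈ As D H) (hy : y ∈ As D H) :
    x * y ^ q - y * x ^ q ∈ Zs D H := by
  obtain ⟨v, hv, rfl⟩ := hx
  obtain ⟨w, hw, rfl⟩ := hy
  have h := comm_mem_zS D (QuotientGroup.mk 1 : Cfsg.SU (2 + 1) F q ⧸ H) hv hw
  rw [form1, form1] at h
  exact h

/-- The size of the radical image. -/
theorem card_As_le : Nat.card (As D H) ≤ q ∨
    Nat.card (As D H) ≤ Nat.card (Zs D H) * Nat.card (Zs D H) := by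
  classical
  by_cases hc : ∀ x ∈ As D H, ∀ y ∈ As D H, x * y ^ q - y * x ^ q = 0
  · left
    by_cases h0 : As D H = ⊥
    · rw [h0, AddSubgroup.card_bot]; have := H3.two_le_q D.hF; omega
    obtain ⟨v, hv, hv0⟩ : ∃ v ∈ As D H, v ≠ 0 := by
      by_contra h; push Not at h; exact h0 (eq_bot_iff.mpr fun v hv => by simp [h v hv])
    refine le_trans ?_ (le_of_eq (H3.card_fixed D.hF))
    refine Nat.card_le_card_of_injective (fun x : As D H => (⟨x.1 / v, ?_⟩ : {x : F // x ^ q = x})) ?_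
    · have h := hc _ x.2 v hv
      rw [div_pow, div_eq_div_iff (pow_ne_zero q hv0) hv0]
      linear_combination (-1 : F) * h
    · intro x y h
      have h' : x.1 / v = y.1 / v := congrArg Subtype.val h
      exact Subtype.ext ((div_left_inj' hv0).mp h')
  · right
    push Not at hc
    obtain ⟨v, hv, w, hw, hvw⟩ := hc
    rw [← Nat.card_prod]
    refine Nat.card_le_card_of_injective
      (fun x : As D H => ((⟨_, comm_mem D H x.2 hv⟩ : Zs D H), (⟨_, comm_mem D H x.2 hw⟩ : Zs D H))) ?_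
    intro x y h
    simp only [Prod.mk.injEq, Subtype.mk.injEq] at h
    obtain ⟨h1, h2⟩ := h
    refine Subtype.ext (sub_eq_zero.mp ?_)
    obtain ⟨d, hd⟩ : ∃ d, d = x.1 - y.1 := ⟨_, rfl⟩
    have e1 : d * v ^ q - v * d ^ q = 0 := by rw [hd, qsub D.hF]; linear_combination h1
    have e2 : d * w ^ q - w * d ^ q = 0 := by rw [hd, qsub D.hF]; linear_combination h2
    rw [← hd]
    by_contra hd0
    exact mul_ne_zero hd0 hvw (by linear_combination v * e2 - w * e1)

/-- Squares in even characteristic. -/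
theorem norm_mem (h2 : (2 : F) = 0) {x : F} (hx : x ∈ As D H) : x * x ^ q ∈ Zs D H := by
  obtain ⟨a, ha, hmem⟩ := (mem_As D H).mp hx
  have h := H.mul_mem hmem hmem
  rw [El_mul ha ha, form1] at h
  have e1 : (fun _ : Fin 1 => x) + (fun _ : Fin 1 => x) = 0 := by
    funext i; simp only [Pi.add_apply, Pi.zero_apply]; linear_combination x * h2
  have e2 : a + a - x * x ^ q = x * x ^ q := by linear_combination (a - x * x ^ q) * h2
  rw [e1, e2] at h
  refine (mem_Zs D H).mpr ⟨?_, h⟩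
  rw [mul_pow, qq D.hF]
  linear_combination (x * x ^ q) * h2

/-- The radical image in even characteristic with few transvections. -/
theorem card_As_even (h2 : (2 : F) = 0) :
    (Nat.card (Zs D H) = 1 → Nat.card (As D H) = 1) ∧
      (Nat.card (Zs D H) = 2 → Nat.card (As D H) ≤ 4) := by
  classical
  refine ⟨fun hz => ?_, fun hz => ?_⟩
  · have e : As D H = ⊥ := eq_bot_iff.mpr fun x hx => by
      have h := norm_mem D H h2 hx
      rw [AddSubgroup.eq_bot_of_card_eq _ hz, AddSubgroup.mem_bot, mul_eq_zero,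
        pow_eq_zero_iff (q_ne_zero D.hF), or_self] at h
      rw [h]; exact zero_mem _
    rw [e, AddSubgroup.card_bot]
  · by_cases hc : ∀ x ∈ As D H, ∀ y ∈ As D H, x * y ^ q - y * x ^ q = 0
    · by_cases h0 : As D H = ⊥
      · rw [h0, AddSubgroup.card_bot]; norm_num
      obtain ⟨v, hv, hv0⟩ : ∃ v ∈ As D H, v ≠ 0 := by
        by_contra h; push Not at h; exact h0 (eq_bot_iff.mpr fun v hv => by simp [h v hv])
      have huniq : ∀ a ∈ Zs D H, ∀ b ∈ Zs D H, a ≠ 0 → b ≠ 0 → a = b := by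
        intro a ha b hb ha0 hb0
        by_contra hab
        have h1 : ({0, a, b} : Set F) ⊆ (Zs D H : Set F) := by
          rintro w (rfl | rfl | rfl)
          exacts [zero_mem _, ha, hb]
        have h2 := Set.ncard_le_ncard h1
        rw [Set.ncard_eq_three.mpr ⟨0, a, b, Ne.symm ha0, Ne.symm hb0, hab, rfl⟩, ← Nat.card_coe_set_eq,
          show Nat.card (Zs D H : Set F) = Nat.card (Zs D H) from rfl, hz] at h2
        omega
      have hsub : (As D H : Set F) ⊆ {0, v} := by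
        intro x hx
        by_cases hx0 : x = 0
        · exact Or.inl hx0
        right
        show x = v
        have hn := huniq _ (norm_mem D H h2 hx) _ (norm_mem D H h2 hv)
          (mul_ne_zero hx0 (pow_ne_zero q hx0)) (mul_ne_zero hv0 (pow_ne_zero q hv0))
        have he : x * x * v ^ q = v * v * v ^ q := by linear_combination x * hc x hx v hv + v * hn
        have hsq : (x - v) * (x - v) = 0 := by
          linear_combination mul_right_cancel₀ (pow_ne_zero q hv0) he + (v * v - x * v) * h2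
        exact sub_eq_zero.mp (mul_self_eq_zero.mp hsq)
      rw [show Nat.card (As D H) = ((As D H : Set F)).ncard from (Nat.card_coe_set_eq _)]
      exact (Set.ncard_le_ncard hsub).trans ((Set.ncard_insert_le _ _).trans (by simp))
    · push Not at hc
      obtain ⟨v, hv, w, hw, hvw⟩ := hc
      have hle := card_As_le D H
      rcases hle with hle | hle
      swap
      · rwa [hz] at hle
      · -- the commutator pairing embeds the image into two copies of the transvection parameters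
        rw [show 4 = Nat.card (Zs D H × Zs D H) by rw [Nat.card_prod, hz]]
        refine Nat.card_le_card_of_injective
          (fun x : As D H => ((⟨_, comm_mem D H x.2 hv⟩ : Zs D H), (⟨_, comm_mem D H x.2 hw⟩ : Zs D H))) ?_
        intro x y h
        simp only [Prod.mk.injEq, Subtype.mk.injEq] at h
        obtain ⟨h1, h3⟩ := h
        refine Subtype.ext (sub_eq_zero.mp ?_)
        obtain ⟨d, hd⟩ : ∃ d, d = x.1 - y.1 := ⟨_, rfl⟩
        have e1 : d * v ^ q - v * d ^ q = 0 := by rw [hd, qsub D.hF]; linear_combination h1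
        have e2 : d * w ^ q - w * d ^ q = 0 := by rw [hd, qsub D.hF]; linear_combination h3
        rw [← hd]
        by_contra hd0
        exact mul_ne_zero hd0 hvw (by linear_combination v * e2 - w * e1)

/-- Conjugating by the radical changes none of the data at the base point. -/
theorem data_conj {u : Cfsg.SU (2 + 1) F q} (hu : u ∈ Qg D 1) :
    Zs D (H.map (MulAut.conj u).toMonoidHom) = Zs D H ∧
      As D (H.map (MulAut.conj u).toMonoidHom) = As D H ∧
      Ks D (H.map (MulAut.conj u).toMonoidHom) = Ks D H := by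
  have hmem : ∀ g, g ∈ H.map (MulAut.conj u).toMonoidHom ↔
      g • (u • (QuotientGroup.mk 1 : Cfsg.SU (2 + 1) F q ⧸ H)) = u • QuotientGroup.mk 1 := by
    intro g
    rw [Subgroup.mem_map_equiv, MulAut.conj_symm_apply, ← fix_coset H, mul_smul, mul_smul,
      inv_smul_eq_iff]
  refine ⟨?_, ?_, ?_⟩
  · ext a
    rw [mem_Zs, hmem, Zs, ← zS_smul_Q (D := D) (QuotientGroup.mk 1 : Cfsg.SU (2 + 1) F q ⧸ H) hu]
    exact Iff.rfl
  · ext x
    rw [mem_As, As, ← aS_smul_Q (D := D) (QuotientGroup.mk 1 : Cfsg.SU (2 + 1) F q ⧸ H) hu,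
      AddSubgroup.mem_map]
    constructor
    · rintro ⟨a, ha, hm⟩
      exact ⟨fun _ => x, mem_aS.mpr ⟨a, ha, (hmem _).mp hm⟩, rfl⟩
    · rintro ⟨w, hw, rfl⟩
      obtain ⟨a, ha, hf⟩ := mem_aS.mp hw
      have e : (fun _ : Fin 1 => w 0) = w := by funext i; fin_cases i; rfl
      refine ⟨a, ?_⟩
      show OkW q (fun _ : Fin 1 => w 0) a ∧ El D (fun _ : Fin 1 => w 0) a ∈ _
      rw [e]
      exact ⟨ha, (hmem _).mpr hf⟩
  · ext c
    rw [mem_Ks, mem_Ks]
    constructor
    · rintro ⟨g, ⟨g₀, hg₀, e⟩, rfl⟩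
      have e' : g.1 = u * g₀ * u⁻¹ := e.symm
      refine ⟨(⟨u, Qg_le_pst D hu⟩ : pst D 1)⁻¹ * g * (⟨u, Qg_le_pst D hu⟩ : pst D 1), ?_, ?_⟩
      · show u⁻¹ * g.1 * u ∈ H
        rw [e']; simpa [mul_assoc] using hg₀
      · rw [map_mul, map_mul, map_inv, mul_right_comm, inv_mul_cancel, one_mul]
    · rintro ⟨g, hg, rfl⟩
      refine ⟨(⟨u, Qg_le_pst D hu⟩ : pst D 1) * g * (⟨u, Qg_le_pst D hu⟩ : pst D 1)⁻¹,
        Subgroup.mem_map.mpr ⟨g.1, hg, by simp⟩, ?_⟩
      rw [map_mul, map_mul, map_inv, mul_right_comm, mul_inv_cancel, one_mul]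

end Cfsg.Agent.H2.MinU.S3
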