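import Cfsg.Agent.H2.MinU.Geom

/-!
`SU 3` on its isotropic points: the stabiliser of a point, and transitivity of big subgroups.
-/

set_option autoImplicit false

namespace Cfsg.Agent.H2.MinU.S3

open Matrix MulAction Cfsg.Agent.H2.MinU

variable {F : Type*} [Field F] [Fintype F] {q : ℕ}

local notation "⟪" u ", " v "⟫" => Cfsg.hermForm _ F q u v

/-- The anisotropic base vector. -/
def u1 : Fin (2 + 1) → F := up (fun _ => 1)

omit [Fintype F] in
lemma up_eq (w : Fin 1 → F) : (up w : Fin (2 + 1) → F) = w 0 • u1 := by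
  rw [u1, ← map_smul]
  congr 1
  funext i
  fin_cases i
  simp

omit [Fintype F] in
lemma form1 (v w : Fin 1 → F) : Cfsg.hermForm 1 F q v w = v 0 * w 0 ^ q := by
  simp [Cfsg.hermForm]

variable (D : Dat F q)

include D in
lemma u1_u1 : ⟪(u1 : Fin (2 + 1) → F), u1⟫ = 1 := by
  rw [u1, D.form_up, form1, one_pow, mul_one]

include D in
lemma u1_ne : (u1 : Fin (2 + 1) → F) ≠ 0 := fun h => one_ne_zero (α := F) (by
  rw [← u1_u1 D, h, hzero_l D.hF])

/-- Every vector in coordinates. -/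
lemma decomp3 (v : Fin (2 + 1) → F) :
    v = ⟪v, D.p' 1⟫ • D.p 1 + ⟪v, D.p 1⟫ • D.p' 1 + (down v 0) • u1 := by
  rw [← up_eq]; exact D.decomp v

/-- The isotropic vectors orthogonal to the base point are its multiples. -/
lemma iso_orth {v : Fin (2 + 1) → F} (hv : ⟪v, v⟫ = 0) (h : ⟪v, D.p 1⟫ = 0) :
    v = ⟪v, D.p' 1⟫ • D.p 1 := by
  obtain ⟨a, ha⟩ : ∃ a, a = ⟪v, D.p' 1⟫ := ⟨_, rfl⟩
  obtain ⟨b, hb⟩ : ∃ b, b = down v 0 := ⟨_, rfl⟩
  have hd : v = a • D.p 1 + b • u1 := by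
    have hd := decomp3 D v
    rw [h, zero_smul, add_zero, ← ha, ← hb] at hd
    exact hd
  have h1 : ⟪v, v⟫ = b * b ^ q := by
    rw [hd]
    simp only [hadd_l D.hF, hadd_r D.hF, hsmul_l D.hF, hsmul_r D.hF, D.p_iso, u1_u1 D, u1, D.p_up,
      D.up_p]
    rw [show Cfsg.hermForm (2 + 1) F q (up (fun _ : Fin 1 => (1 : F))) (up (fun _ => 1)) = 1 from u1_u1 D]
    ring
  rw [hv, eq_comm, mul_eq_zero, pow_eq_zero_iff (q_ne_zero D.hF), or_self] at h1
  rw [h1, zero_smul, add_zero] at hd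
  rw [← ha]; exact hd

/-- The order of the group. -/
theorem card_SU3 (hF : Fintype.card F = q ^ 2) :
    Nat.card (Cfsg.SU (2 + 1) F q) = q ^ 3 * (q ^ 3 + 1) * (q ^ 2 - 1) := by
  have h := H3.card_SU hF (n := 2 + 1) (by norm_num)
  rw [H3.card_GU hF] at h
  simp only [Finset.prod_range_succ, Finset.prod_range_zero, Nat.reduceAdd, Nat.reduceMul,
    Nat.reduceSub, Nat.reduceDiv, one_mul] at h
  rw [if_pos (by decide), if_neg (by decide), if_pos (by decide)] at h
  refine Nat.eq_of_mul_eq_mul_left (show 0 < q + 1 by omega) (h.trans ?_)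
  ring

/-- The order of the stabiliser of a point. -/
theorem card_B : Nat.card (pst D 1) = q ^ 3 * (q ^ 2 - 1) := by
  have h := (pst D 1).card_mul_index
  rw [index_pst D le_rfl, pts_three, card_SU3 D.hF] at h
  refine Nat.eq_of_mul_eq_mul_right (show 0 < q ^ 3 + 1 by omega) (h.trans ?_)
  ring

lemma cB_ne (g : pst D 1) : ⟪act g.1 (D.p 1), D.p' 1⟫ ≠ 0 := by
  obtain ⟨c, hc0, hc⟩ := g.2
  rw [hc, hsmul_l D.hF, D.p_p', mul_one]; exact hc0

lemma act_p_B (g : pst D 1) : act g.1 (D.p 1) = ⟪act g.1 (D.p 1), D.p' 1⟫ • D.p 1 := by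
  obtain ⟨c, -, hc⟩ := g.2
  rw [hc, hsmul_l D.hF, D.p_p', mul_one]

/-- The scalar of a stabiliser element. -/
noncomputable def χ : pst D 1 →* Fˣ :=
  MonoidHom.mk' (fun g => Units.mk0 _ (cB_ne D g)) fun g h => Units.ext (by
    simp only [Units.val_mk0, Units.val_mul]
    rw [Subgroup.coe_mul, act_mul, act_p_B D h, act_smul, act_p_B D g, smul_smul, hsmul_l D.hF,
      hsmul_l D.hF, hsmul_l D.hF, D.p_p']
    ring)

lemma χ_val (g : pst D 1) : (χ D g : F) = ⟪act g.1 (D.p 1), D.p' 1⟫ := rfl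

lemma act_p_χ (g : pst D 1) : act g.1 (D.p 1) = (χ D g : F) • D.p 1 := act_p_B D g

lemma χ_eq {g : pst D 1} {c : F} (h : act g.1 (D.p 1) = c • D.p 1) : (χ D g : F) = c := by
  rw [χ_val, h, hsmul_l D.hF, D.p_p', mul_one]

lemma El_fix_p {w : Fin 1 → F} {a : F} (h : OkW q w a) : act (El D w a) (D.p 1) = D.p 1 := by
  rw [El, act_E D.hF (ok_of h D), D.p_iso, D.p_up]
  simp

lemma Qg_le_pst : Qg D 1 ≤ pst D 1 := by
  rintro g ⟨w, a, h, rfl⟩
  exact ⟨1, one_ne_zero, by rw [El_fix_p D h, one_smul]⟩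

lemma lev_le_pst : Lev D 1 ≤ pst D 1 := fun _ h => h.1

/-- A Levi element with any scalar, acting on the line of parameters by `c ^ (2q - 1)`. -/
theorem exists_lev3 {c : F} (hc : c ≠ 0) :
    ∃ g : Lev D 1, cc g = c ∧ (∀ w : Fin 1 → F, g • w = (c ^ q * c ^ (q - 1)) • w) ∧
      act g.1 u1 = c ^ (q - 1) • u1 := by
  have hq := H3.two_le_q D.hF
  have hd : ∀ _i : Fin 1, (c ^ (q - 1)) ^ (q + 1) = 1 := fun _ => by
    rw [← pow_mul, show (q - 1) * (q + 1) = q ^ 2 - 1 by rw [mul_comm, ← Nat.sq_sub_sq, one_pow],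
      ← D.hF]
    exact FiniteField.pow_card_sub_one_eq_one c hc
  obtain ⟨g, h1, h2⟩ := exists_levL D c hc (fun _ : Fin 1 => c ^ (q - 1)) hd (by
    rw [Fin.prod_univ_one, ← pow_succ']; congr 1; omega)
  refine ⟨g, h1, fun w => ?_, ?_⟩
  · rw [h2]; funext i; simp [mul_assoc]
  · have h3 := act_up_smul g (fun _ => (1 : F))
    rw [h2, h1] at h3
    simp only [mul_one] at h3
    have e : (up (fun _ : Fin 1 => c ^ q * c ^ (q - 1)) : Fin (2 + 1) → F) = (c ^ q * c ^ (q - 1)) • u1 :=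
      up_eq _
    rw [e, mul_smul] at h3
    exact (smul_right_injective _ (pow_ne_zero q hc) h3).symm

lemma χ_surj : Function.Surjective (χ D) := fun c => by
  obtain ⟨g, hg, -⟩ := exists_lev3 D c.ne_zero
  exact ⟨⟨g.1, lev_le_pst D g.2⟩, Units.ext (by rw [χ_val]; exact hg)⟩

/-- The kernel of the scalar is the radical. -/
theorem χ_ker (g : pst D 1) : χ D g = 1 ↔ g.1 ∈ Qg D 1 := by
  have hle : (Qg D 1).subgroupOf (pst D 1) ≤ (χ D).ker := fun g hg => by
    obtain ⟨w, a, h, e⟩ := hg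
    refine Units.ext (χ_eq D ?_)
    rw [show g.1 = El D w a from e, El_fix_p D h, Units.val_one, one_smul]
  have heq : (Qg D 1).subgroupOf (pst D 1) = (χ D).ker := by
    refine Subgroup.eq_of_le_of_card_ge hle (le_of_eq ?_)
    have h1 := (χ D).ker.card_mul_index
    rw [Subgroup.index_ker, MonoidHom.range_eq_top.mpr (χ_surj D), Subgroup.card_top,
      H3.card_units_eq D.hF, card_B] at h1
    rw [Nat.card_congr (Subgroup.subgroupOfEquivOfLe (Qg_le_pst D)).toEquiv, card_Qg]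
    have hq := H3.two_le_q D.hF
    refine Nat.eq_of_mul_eq_mul_right (show 0 < (q - 1) * (q + 1) from Nat.mul_pos (by omega) (by omega)) ?_
    rw [h1, show q ^ 2 - 1 = (q - 1) * (q + 1) by rw [mul_comm (q - 1), ← Nat.sq_sub_sq, one_pow]]
  rw [← MonoidHom.mem_ker, ← heq, Subgroup.mem_subgroupOf]

/-- Elements of `p`-power order in the stabiliser lie in the radical. -/
theorem pelem_mem_Qg {p k : ℕ} [Fact p.Prime] [CharP F p] (g : pst D 1) (h : g.1 ^ p ^ k = 1) :
    g.1 ∈ Qg D 1 := by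
  rw [← χ_ker]
  refine Units.ext ?_
  have h2 : (χ D g : F) ^ p ^ k = 1 := by
    rw [← Units.val_pow_eq_pow_val, ← map_pow]
    rw [show g ^ p ^ k = 1 from Subtype.ext (by simpa using h), map_one, Units.val_one]
  rw [Units.val_one]
  exact iterateFrobenius_inj F p k (by simpa [iterateFrobenius_def] using h2)

/-- The isotropic points. -/
abbrev X := Cfsg.SU (2 + 1) F q ⧸ pst D 1

/-- The base point. -/
def x0 : X D := QuotientGroup.mk 1

lemma card_X : Nat.card (X D) = q ^ 3 + 1 := (index_pst D le_rfl).trans (pts_three q)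

lemma smul_x0 (g : Cfsg.SU (2 + 1) F q) : g • x0 D = QuotientGroup.mk g := by
  show QuotientGroup.mk (g * 1) = _
  rw [mul_one]

lemma fix_x0 {g : Cfsg.SU (2 + 1) F q} : g • x0 D = x0 D ↔ g ∈ pst D 1 := by
  rw [smul_x0, x0, QuotientGroup.eq]
  simp

/-- A non-trivial element of the radical fixes one point only. -/
theorem Q_fix {g : Cfsg.SU (2 + 1) F q} (hg : g ∈ Qg D 1) (h1 : g ≠ 1) {x : X D} (hx : g • x = x) :
    x = x0 D := by
  obtain ⟨h, rfl⟩ := QuotientGroup.mk_surjective x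
  obtain ⟨w, a, hok, rfl⟩ := hg
  rw [← smul_x0, smul_smul] at hx
  have hx' : (h⁻¹ * (El D w a * h)) • x0 D = x0 D := by rw [mul_smul, hx, inv_smul_smul]
  obtain ⟨c, -, hc⟩ := (fix_x0 D).mp hx'
  rw [act_mul, act_mul] at hc
  obtain ⟨v, hv⟩ : ∃ v, v = act h (D.p 1) := ⟨_, rfl⟩
  have hv' : act (El D w a) v = c • v := by
    have := congrArg (act h) hc
    rw [act_act_inv, act_smul, ← hv] at this
    exact this
  rw [← smul_x0, fix_x0]
  by_contra hB
  have hβ : ⟪v, D.p 1⟫ ≠ 0 := fun h0 => by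
    have := iso_orth D (v := v) (by rw [hv, form_act, D.p_iso]) h0
    exact hB ⟨⟪v, D.p' 1⟫, fun e => act_ne_zero h D.p_ne (by rw [← hv, this, e, zero_smul]), by
      rw [← hv]; exact this⟩
  rw [El, act_E D.hF (ok_of hok D)] at hv'
  have h2 := congrArg (fun y => ⟪y, D.p 1⟫) hv'
  simp only [hadd_l D.hF, hsub_l D.hF, hsmul_l D.hF, D.up_p, D.p_iso, mul_zero, add_zero, sub_zero] at h2
  have hc1 : c = 1 := mul_right_cancel₀ hβ (by rw [one_mul]; exact h2.symm)
  have h3 := congrArg down hv'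
  rw [hc1, one_smul] at h3
  simp only [map_add, map_sub, map_smul, D.down_p, down_up, smul_zero, sub_zero, add_zero] at h3
  rw [add_eq_left, smul_eq_zero] at h3
  have hw : w = 0 := h3.resolve_left hβ
  subst hw
  have h4 := congrArg (fun y => ⟪y, D.p' 1⟫) hv'
  simp only [hc1, map_zero, hzero_r D.hF, hadd_l D.hF, hsub_l D.hF, hsmul_l D.hF, hzero_l D.hF, D.p_p',
    mul_zero, add_zero, sub_zero, mul_one, one_smul] at h4
  have ha : a = 0 := by
    rw [add_eq_left, mul_eq_zero] at h4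
    exact h4.resolve_right hβ
  exact h1 (by rw [ha, El_zero])

variable (H : Subgroup (Cfsg.SU (2 + 1) F q))

/-- A subgroup of index at most `q ^ 3` is transitive on the isotropic points. -/
theorem transitive_of_index_le (hN : H.index ≤ q ^ 3) (x : X D) : ∃ h ∈ H, h • x0 D = x := by
  classical
  have hq := H3.two_le_q D.hF
  obtain ⟨p, k, hp, hc, -, hpq⟩ := H3.exists_q_eq_pow D.hF
  haveI := Fact.mk hp
  have hcardH : (q ^ 3 + 1) * (q ^ 2 - 1) ≤ Nat.card H := by
    have h := H.card_mul_index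
    rw [card_SU3 D.hF] at h
    refine Nat.le_of_mul_le_mul_left ?_ (show 0 < q ^ 3 from Nat.pow_pos (by omega))
    calc q ^ 3 * ((q ^ 3 + 1) * (q ^ 2 - 1)) = Nat.card H * H.index := by rw [h]; ring
      _ ≤ _ := by rw [mul_comm]; exact Nat.mul_le_mul_right _ hN
  suffices hsuf : ∀ x y : X D, ∃ h ∈ H, h • x = y from hsuf _ _
  by_cases hfree : ∃ g : Cfsg.SU (2 + 1) F q, ∀ u ∈ Qg D 1, g * u * g⁻¹ ∈ H → u = 1
  · obtain ⟨g, hg⟩ := hfree
    have hle : Nat.card (stabilizer H (g • x0 D)) ≤ q ^ 2 - 1 := by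
      have hmem : ∀ h : stabilizer H (g • x0 D), g⁻¹ * h.1.1 * g ∈ pst D 1 := fun h => by
        rw [← fix_x0, mul_smul, mul_smul]
        rw [show h.1.1 • g • x0 D = g • x0 D from h.2, inv_smul_smul]
      have hinj : Function.Injective (fun h : stabilizer H (g • x0 D) => χ D ⟨_, hmem h⟩) := by
        intro a b hab
        have h1 : χ D (⟨_, hmem a⟩⁻¹ * ⟨_, hmem b⟩) = 1 := by
          rw [map_mul, map_inv]
          simp only at hab
          rw [hab, inv_mul_cancel]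
        rw [χ_ker] at h1
        have h2 := hg _ h1 (by
          have : g * ((g⁻¹ * a.1.1 * g)⁻¹ * (g⁻¹ * b.1.1 * g)) * g⁻¹ = a.1.1⁻¹ * b.1.1 := by group
          simp only [Subgroup.coe_mul, Subgroup.coe_inv]
          rw [this]; exact H.mul_mem (H.inv_mem a.1.2) b.1.2)
        simp only [Subgroup.coe_mul, Subgroup.coe_inv, inv_mul_eq_one, mul_left_inj, mul_right_inj] at h2
        exact Subtype.ext (Subtype.ext h2)
      refine (Nat.card_le_card_of_injective _ hinj).trans (le_of_eq ?_)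
      rw [H3.card_units_eq D.hF, mul_comm, ← Nat.sq_sub_sq, one_pow]
    have h1 := card_orbit_mul_stab (⊤ : Subgroup H) (g • x0 D)
    have h2 : Nat.card (X D) ≤ Nat.card (orbit H (g • x0 D)) := by
      have h3 : Nat.card (orbit H (g • x0 D)) * Nat.card (stabilizer H (g • x0 D)) = Nat.card H := by
        rw [← Nat.card_prod]
        exact Nat.card_congr (MulAction.orbitProdStabilizerEquivGroup H (g • x0 D))
      rw [card_X]
      have hpos : 0 < q ^ 2 - 1 := by
        have : 2 ^ 2 ≤ q ^ 2 := Nat.pow_le_pow_left hq 2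
        omega
      refine Nat.le_of_mul_le_mul_right ?_ hpos
      exact (hcardH.trans h3.ge).trans (Nat.mul_le_mul_left _ hle)
    have horb : orbit H (g • x0 D) = Set.univ := Set.eq_of_subset_of_ncard_le (Set.subset_univ _) (by
      rw [Set.ncard_univ, ← Nat.card_coe_set_eq]; exact h2)
    intro x y
    obtain ⟨a, ha⟩ : x ∈ orbit H (g • x0 D) := horb ▸ Set.mem_univ x
    obtain ⟨b, hb⟩ : y ∈ orbit H (g • x0 D) := horb ▸ Set.mem_univ y
    refine ⟨b.1 * a.1⁻¹, H.mul_mem b.2 (H.inv_mem a.2), ?_⟩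
    have hb' : b.1 • g • x0 D = y := hb
    have ha' : a.1 • g • x0 D = x := ha
    rw [mul_smul, ← ha', inv_smul_smul, hb']
  · push Not at hfree
    obtain ⟨P⟩ := (inferInstance : Nonempty (Sylow p H))
    have hX : ¬ p ∣ Nat.card (X D) := by
      rw [card_X]
      intro hd
      have hk : 1 ≤ k := Nat.one_le_iff_ne_zero.mpr fun e => by rw [e, pow_zero] at hpq; omega
      have : p ∣ q ^ 3 := dvd_pow (hpq ▸ dvd_pow_self p (by omega)) (by norm_num)
      exact hp.not_dvd_one ((Nat.dvd_add_right this).mp hd)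
    obtain ⟨y₀, hy₀⟩ := P.isPGroup'.nonempty_fixed_point_of_prime_not_dvd_card (X D) hX
    have key : ∀ x : X D, ∃ h ∈ H, h • y₀ = x := by
      intro x
      obtain ⟨g, rfl⟩ := QuotientGroup.mk_surjective x
      obtain ⟨u, hu, huH, hu1⟩ := hfree g
      have hz : ∀ z : X D, (g * u * g⁻¹) • z = z → z = QuotientGroup.mk g := by
        intro z hz
        rw [mul_smul, mul_smul, ← eq_inv_smul_iff] at hz
        rw [← smul_x0, ← Q_fix D hu hu1 hz, smul_inv_smul]
      have hp' : IsPGroup p (Subgroup.zpowers (⟨_, huH⟩ : H)) := by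
        have hQ : IsPGroup p (Qg D 1) := IsPGroup.of_card (n := k * 3) (by rw [card_Qg, hpq, ← pow_mul])
        obtain ⟨j, hj⟩ := hQ ⟨u, hu⟩
        refine IsPGroup.of_card (n := Nat.log p (Nat.card (Subgroup.zpowers (⟨_, huH⟩ : H)))) ?_
        rw [Nat.card_zpowers]
        have hdvd : orderOf (⟨_, huH⟩ : H) ∣ p ^ j := by
          refine orderOf_dvd_of_pow_eq_one (Subtype.ext ?_)
          have hj' : u ^ p ^ j = 1 := congrArg Subtype.val hj
          simp only [SubmonoidClass.coe_pow, conj_pow, hj', mul_one, mul_inv_cancel, OneMemClass.coe_one]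
        obtain ⟨i, -, hi⟩ := (Nat.dvd_prime_pow hp).mp hdvd
        rw [hi, Nat.log_pow hp.one_lt]
      obtain ⟨P', hP'⟩ := hp'.exists_le_sylow
      obtain ⟨h, hh⟩ := MulAction.exists_smul_eq H P P'
      refine ⟨h.1, h.2, hz _ ?_⟩
      have hmem : (⟨_, huH⟩ : H) ∈ (P' : Subgroup H) := hP' (Subgroup.mem_zpowers _)
      rw [← hh] at hmem
      obtain ⟨v, hv, hv'⟩ := hmem
      have hfix : v.1 • y₀ = y₀ := hy₀ ⟨v, hv⟩
      have e : h.1 * v.1 * h.1⁻¹ = g * u * g⁻¹ := congrArg Subtype.val hv'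
      rw [← e, mul_smul, mul_smul, inv_smul_smul, hfix]
    intro x y
    obtain ⟨a, ha, rfl⟩ := key x
    obtain ⟨b, hb, rfl⟩ := key y
    exact ⟨b * a⁻¹, H.mul_mem hb (H.inv_mem ha), by rw [mul_smul, inv_smul_smul]⟩

end Cfsg.Agent.H2.MinU.S3
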