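import Cfsg.Agent.H2.MinU.S3.Line

/-!
Transitivity on the line, with and without transvections.
-/

set_option autoImplicit false

namespace Cfsg.Agent.H2.MinU.S3

open Matrix MulAction Cfsg.Agent.H2.MinU

variable {F : Type*} [Field F] [Fintype F] {q : ℕ} {D : Dat F q}
  {H : Subgroup (Cfsg.SU (2 + 1) F q)}

local notation "⟪" u ", " v "⟫" => Cfsg.hermForm _ F q u v

/-- With transvections the stabiliser is transitive on the line. -/
theorem trans_big (hT : ∀ x : X D, ∃ h ∈ H, h • x0 D = x) (hz : 2 ≤ Nat.card (Zs D H)) :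
    ∀ y : L D, ∃ g : Mw H, g • y0 D = y := by
  classical
  obtain ⟨p, k, hp, hc, -, hpq⟩ := H3.exists_q_eq_pow D.hF
  haveI := Fact.mk hp
  obtain ⟨a, ha, ha0⟩ : ∃ a ∈ Zs D H, a ≠ 0 := by
    by_contra h
    push Not at h
    have e : Zs D H = ⊥ := eq_bot_iff.mpr fun a ha => by simp [h a ha]
    rw [e, AddSubgroup.card_bot] at hz
    omega
  have hsk := ((mem_Zs D H).mp ha).1
  have hEp : El D (0 : Fin 1 → F) a ^ p = 1 := by
    have hEl : ∀ n : ℕ, El D (0 : Fin 1 → F) a ^ n = El D (0 : Fin 1 → F) (n • a) := by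
      intro n
      induction n with
      | zero => rw [pow_zero, zero_smul, El_zero]
      | succ n ih =>
        rw [pow_succ, ih, El_mul (okW_zero D.hF ((skew D.hF).nsmul_mem hsk n)) (okW_zero D.hF hsk),
          add_zero, hzero_r D.hF, sub_zero, succ_nsmul]
    rw [hEl, nsmul_eq_mul, CharP.cast_eq_zero, zero_mul, El_zero]
  have hE1 : El D (0 : Fin 1 → F) a ≠ 1 := fun h => by
    rw [← El_zero (D := D)] at h
    exact ha0 (El_inj (okW_zero D.hF hsk) (okW_zero D.hF (by simp [zero_pow (q_ne_zero D.hF)])) h).2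
  -- at every point of the line an element of order `p` fixing only that point
  have hpt : ∀ y : L D, ∃ t : Mw H, t ^ p = 1 ∧ t • y = y ∧ ∀ z : L D, t • z = z → z = y := by
    intro y
    obtain ⟨g, hg, hgy⟩ := hT y.1
    obtain ⟨c, hc, e⟩ := vec_mk D g
    rw [← smul_x0, hgy] at e
    have hgp : InPl D (act g (D.p 1)) := by
      have e' : act g (D.p 1) = c⁻¹ • vec D y.1 := by rw [e, smul_smul, inv_mul_cancel₀ hc, one_smul]
      rw [e']
      have := inPl_comb D c⁻¹ 0 y.2 y.2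
      rwa [zero_smul, add_zero] at this
    have hk : g * El D (0 : Fin 1 → F) a * g⁻¹ ∈ Mw H := by
      refine ⟨H.mul_mem (H.mul_mem hg ((mem_Zs D H).mp ha).2) (H.inv_mem hg), 1, one_ne_zero, ?_⟩
      rw [El, map_zero, E_conj D.hF g (ok_zero D.p_iso hsk D.hF), act_zero,
        act_trans D.hF (by rw [form_act, D.p_iso]) hsk, hswap_zero D.hF hgp, mul_zero, zero_smul,
        add_zero, one_smul]
    have hfix : El D (0 : Fin 1 → F) a • x0 D = x0 D :=
      (fix_x0 D).mpr (Qg_le_pst D (El_mem (okW_zero D.hF hsk)))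
    refine ⟨⟨_, hk⟩, Subtype.ext ?_, Subtype.ext ?_, fun z hz => Subtype.ext ?_⟩
    · rw [SubmonoidClass.coe_pow, conj_pow, hEp, mul_one, mul_inv_cancel, OneMemClass.coe_one]
    · show (g * El D (0 : Fin 1 → F) a * g⁻¹) • y.1 = y.1
      rw [← hgy, mul_smul, mul_smul, inv_smul_smul, hfix]
    · have h1 : (g * El D (0 : Fin 1 → F) a * g⁻¹) • z.1 = z.1 := congrArg Subtype.val hz
      rw [mul_smul, mul_smul, ← eq_inv_smul_iff] at h1
      rw [← hgy, ← Q_fix D (El_mem (okW_zero D.hF hsk)) hE1 h1, smul_inv_smul]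
  intro y
  by_contra hy
  set O := orbit (Mw H) (y0 D) with hO
  have hyO : y ∉ O := fun ⟨g, e⟩ => hy ⟨g, e⟩
  have count : ∀ w : L D, Nat.card O ≡ (if w ∈ O then 1 else 0) [MOD p] := by
    intro w
    obtain ⟨t, htp, htw, htz⟩ := hpt w
    have hP : IsPGroup p (Subgroup.zpowers t) := by
      obtain ⟨i, -, hi⟩ := (Nat.dvd_prime_pow hp).mp
        (show orderOf t ∣ p ^ 1 by rw [pow_one]; exact orderOf_dvd_of_pow_eq_one htp)
      exact IsPGroup.of_card (n := i) (by rw [Nat.card_zpowers, hi])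
    have h := hP.card_modEq_card_fixedPoints O
    have hfp : ∀ z : O, z ∈ fixedPoints (Subgroup.zpowers t) O ↔ z.1 = w := by
      intro z
      constructor
      · intro hz
        exact htz _ (congrArg Subtype.val (hz ⟨t, Subgroup.mem_zpowers t⟩))
      · intro e s
        refine Subtype.ext ?_
        show (s.1 : Mw H) • z.1 = z.1
        rw [e]
        obtain ⟨n, hn⟩ := s.2
        rw [← hn]
        exact (mem_stabilizer_iff).mp ((stabilizer (Mw H) w).zpow_mem htw n)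
    refine h.trans ?_
    split_ifs with hw
    · rw [Nat.card_eq_one_iff_unique.mpr ⟨⟨fun a b => Subtype.ext (Subtype.ext
        (((hfp a.1).mp a.2).trans ((hfp b.1).mp b.2).symm))⟩, ⟨⟨⟨w, hw⟩, (hfp _).mpr rfl⟩⟩⟩]
    · haveI : IsEmpty (fixedPoints (Subgroup.zpowers t) O) :=
        ⟨fun z => hw ((hfp z.1).mp z.2 ▸ z.1.2)⟩
      rw [Nat.card_of_isEmpty]
  have h1 := count (y0 D)
  have h2 := count y
  rw [if_pos (mem_orbit_self _)] at h1
  rw [if_neg hyO] at h2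
  have h3 : 1 ≡ 0 [MOD p] := h1.symm.trans h2
  exact hp.one_lt.ne' (Nat.dvd_one.mp (Nat.modEq_zero_iff_dvd.mp h3))

/-- The scalar on the anisotropic vector is determined by the scalar at the point. -/
theorem mu_eq {g : pst D 1} (hg : g.1 ∈ Wst (F := F) (q := q)) :
    act g.1 u1 = (χ D g : F) ^ (q - 1) • u1 := by
  obtain ⟨l, hl, -, hlu⟩ := exists_lev3 D (χ D g).ne_zero
  have hu : l.1⁻¹ * g.1 ∈ Qg D 1 := by
    have e : χ D ((⟨l.1, lev_le_pst D l.2⟩ : pst D 1)⁻¹ * g) = 1 := by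
      rw [map_mul, map_inv, inv_mul_eq_one]
      refine Units.ext ?_
      rw [χ_val]
      exact hl
    exact (χ_ker D _).mp e
  obtain ⟨w, a, hok, he⟩ := hu
  have hlW : l.1 ∈ Wst (F := F) (q := q) := ⟨_, pow_ne_zero _ (χ D g).ne_zero, hlu⟩
  obtain ⟨μ, hμ0, hμ⟩ := (Wst (F := F) (q := q)).mul_mem ((Wst (F := F) (q := q)).inv_mem hlW) hg
  have hup : Cfsg.hermForm (2 + 1) F q (u1 : Fin (2 + 1) → F) (D.p 1) = 0 := D.up_p _
  have hpu : Cfsg.hermForm (2 + 1) F q (D.p 1) (u1 : Fin (2 + 1) → F) = 0 := D.p_up _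
  have h1 := hμ
  rw [he, El, act_E D.hF (ok_of hok D), hup] at h1
  have h2 := congrArg (fun v => Cfsg.hermForm (2 + 1) F q v u1) h1
  simp only [zero_smul, mul_zero, add_zero, hsub_l D.hF, hsmul_l D.hF, hpu, u1_u1 D, mul_one,
    sub_zero] at h2
  have e : g.1 = l.1 * (l.1⁻¹ * g.1) := by rw [mul_inv_cancel_left]
  rw [e, act_mul, hμ, ← h2, one_smul, hlu]

/-- A stabiliser element of norm one acts as a scalar on the plane when there are no transvections. -/
theorem scalar_plane (hZ : Nat.card (Zs D H) = 1) {g : Mw H} (hg : g.1 ∈ pst D 1)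
    (h1 : χ D ⟨g.1, hg⟩ ^ (q + 1) = 1) :
    ∀ v, InPl D v → act g.1 v = (χ D ⟨g.1, hg⟩ : F) • v := by
  obtain ⟨a, ha, hmv, haZ⟩ := normal_form g hg
  have ha0 : a = 0 := by
    have := haZ h1
    rwa [AddSubgroup.eq_bot_of_card_eq _ hZ, AddSubgroup.mem_bot] at this
  have hone : perm D H g = 1 := Equiv.ext fun x => by
    show g • x = x
    rcases L_cases D x with rfl | ⟨b, rfl⟩
    · exact fix_y0.mpr hg
    · exact hmv b b (by rw [h1, ha0, Units.val_one, one_mul, add_zero])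
  obtain ⟨l, hl⟩ := (perm_eq_one D H).mp hone
  have e := hl _ (inPl_p D)
  rw [act_p_χ D ⟨g.1, hg⟩] at e
  intro v hv
  rw [hl v hv, smul_left_injective F D.p_ne e]

/-- An element conjugating one such scalar element to another stabilises the plane. -/
theorem wst_of_conj {h g : Cfsg.SU (2 + 1) F q} {c μ c₁ μ₁ : F}
    (hh : ∀ v, InPl D v → act h v = c • v) (hu : act h u1 = μ • u1) (hcμ : μ ≠ c)
    (kk : act (g⁻¹ * h * g) (D.p 1) = c₁ • D.p 1) (ku : act (g⁻¹ * h * g) u1 = μ₁ • u1) (hcμ₁ : μ₁ ≠ c₁) :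
    g ∈ Wst (F := F) (q := q) := by
  have hact : ∀ v : Fin (2 + 1) → F,
      act h v = c • v + ((μ - c) * Cfsg.hermForm (2 + 1) F q v u1 : F) • (u1 : Fin (2 + 1) → F) := by
    intro (v : Fin (2 + 1) → F)
    have hw : InPl D (v - ⟪v, u1⟫ • u1) := by
      unfold InPl
      rw [hsub_l D.hF, hsmul_l D.hF, u1_u1 D, mul_one, sub_self]
    have e := hh _ hw
    rw [act_sub, act_smul, hu, sub_eq_iff_eq_add] at e
    rw [e]
    module
  have hshift : ∀ (v : Fin (2 + 1) → F) (r : F), act (g⁻¹ * h * g) v = r • v → act h (act g v) = r • act g v := by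
    intro v r e
    rw [act_mul, act_mul] at e
    have := congrArg (act g) e
    rwa [act_act_inv, act_smul] at this
  have h1 := hshift _ _ kk
  have h2 := hshift _ _ ku
  have hiso : ⟪act g (D.p 1), act g (D.p 1)⟫ = 0 := (form_act _ _ _).trans D.p_iso
  have hc1 : c₁ = c := by
    by_contra hne
    rw [hact, ← eq_sub_iff_add_eq', ← sub_smul] at h1
    have e : act g (D.p 1) = ((c₁ - c)⁻¹ * ((μ - c) * ⟪act g (D.p 1), u1⟫)) • u1 := by
      rw [mul_smul, h1, smul_smul, inv_mul_cancel₀ (sub_ne_zero.mpr hne), one_smul]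
    obtain ⟨r, hr⟩ : ∃ r, r = (c₁ - c)⁻¹ * ((μ - c) * ⟪act g (D.p 1), u1⟫) := ⟨_, rfl⟩
    rw [← hr] at e
    rw [e, hsmul_l D.hF, hsmul_r D.hF, u1_u1 D, mul_one, mul_eq_zero, pow_eq_zero_iff (q_ne_zero D.hF),
      or_self] at hiso
    exact act_ne_zero g D.p_ne (by rw [e, hiso, zero_smul])
  rw [hact, ← eq_sub_iff_add_eq', ← sub_smul] at h2
  have hne : μ₁ - c ≠ 0 := sub_ne_zero.mpr (hc1 ▸ hcμ₁)
  refine ⟨(μ₁ - c)⁻¹ * ((μ - c) * ⟪act g u1, u1⟫), fun h0 => ?_, ?_⟩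
  · refine act_ne_zero g (u1_ne D) ?_
    have := congrArg ((μ₁ - c)⁻¹ • ·) h2
    simp only [smul_smul, inv_mul_cancel₀ hne, one_smul] at this
    rw [← this, h0, zero_smul]
  · rw [mul_smul, h2, smul_smul, inv_mul_cancel₀ hne, one_smul]

/-- Conjugation into the stabiliser of the plane. -/
theorem conj_into_W (g : pst D 1) (h1 : χ D g ^ (q + 1) = 1) (h3 : χ D g ^ 3 ≠ 1) :
    ∃ u ∈ Qg D 1, u * g.1 * u⁻¹ ∈ Wst (F := F) (q := q) := by
  have hq := H3.two_le_q D.hF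
  obtain ⟨l, hl, -, hlu⟩ := exists_lev3 D (χ D g).ne_zero
  have hu : l.1⁻¹ * g.1 ∈ Qg D 1 := by
    have e : χ D ((⟨l.1, lev_le_pst D l.2⟩ : pst D 1)⁻¹ * g) = 1 := by
      rw [map_mul, map_inv, inv_mul_eq_one]
      refine Units.ext ?_
      rw [χ_val]
      exact hl
    exact (χ_ker D _).mp e
  obtain ⟨w, a, hok, he⟩ := hu
  obtain ⟨c, hc⟩ : ∃ c, c = (χ D g : F) := ⟨_, rfl⟩
  rw [← hc] at hlu hl
  have hup : Cfsg.hermForm (2 + 1) F q (u1 : Fin (2 + 1) → F) (D.p 1) = 0 := D.up_p _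
  have hgp : act g.1 (D.p 1) = c • D.p 1 := by rw [hc]; exact act_p_χ D g
  obtain ⟨κ, hκ⟩ : ∃ κ : F, κ = -(⟪(u1 : Fin (2 + 1) → F), up w⟫ * c) := ⟨_, rfl⟩
  have hgu : act g.1 u1 = c ^ (q - 1) • u1 + κ • D.p 1 := by
    have e : g.1 = l.1 * (l.1⁻¹ * g.1) := by rw [mul_inv_cancel_left]
    rw [e, act_mul, he, El, act_E D.hF (ok_of hok D), hup]
    simp only [zero_smul, mul_zero, add_zero, act_sub, act_smul, hlu, act_p l, hl, hκ]
    module
  have hne : c ^ (q - 1) - c ≠ 0 := by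
    intro h
    refine h3 (Units.ext ?_)
    have h2 : c ^ (q - 1) = c := sub_eq_zero.mp h
    have h1' : c ^ (q + 1) = 1 := by rw [hc, ← Units.val_pow_eq_pow_val, h1, Units.val_one]
    rw [Units.val_pow_eq_pow_val, ← hc, Units.val_one, ← h1', show q + 1 = (q - 1) + 2 by omega, pow_add, h2]
    ring
  obtain ⟨r, hr⟩ : ∃ r, r = κ / (c ^ (q - 1) - c) := ⟨_, rfl⟩
  have heig : act g.1 (u1 + r • D.p 1) = c ^ (q - 1) • (u1 + r • D.p 1) := by
    rw [act_add, act_smul, hgu, hgp]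
    match_scalars
    · ring
    · rw [hr]; field_simp; ring
  obtain ⟨b, hb⟩ := okW_exists D.hF (fun _ : Fin 1 => r ^ q)
  refine ⟨El D (fun _ : Fin 1 => r ^ q) b, El_mem hb, c ^ (q - 1), ?_, ?_⟩
  · exact pow_ne_zero _ (hc ▸ (χ D g).ne_zero)
  have hEu : act (El D (fun _ : Fin 1 => r ^ q) b) (u1 + r • D.p 1) = u1 := by
    rw [act_add, act_smul, El_fix_p D hb, El, act_E D.hF (ok_of hb D), hup, u1, D.form_up, form1, qq D.hF]
    module
  have hEi : act (El D (fun _ : Fin 1 => r ^ q) b)⁻¹ u1 = u1 + r • D.p 1 := by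
    conv_lhs => rw [← hEu, act_inv_act]
  rw [act_mul, act_mul, hEi, heig, act_smul, hEu]

/-- A group of units killed by a power has order dividing it. -/
theorem card_dvd_of_pow (K : Subgroup Fˣ) (n : ℕ) (h : ∀ c ∈ K, c ^ n = 1) : Nat.card K ∣ n := by
  rw [← IsCyclic.exponent_eq_card (α := K)]
  exact Monoid.exponent_dvd_of_forall_pow_eq_one fun c => Subtype.ext (h c.1 c.2)

/-- A group of units is controlled by a power map, relative form. -/
theorem card_dvd_map_pow_rel (K : Subgroup Fˣ) (k n : ℕ) (hn : ∀ c ∈ K, c ^ k = 1 → c ^ n = 1) :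
    Nat.card K ∣ Nat.card (K.map (powMonoidHom k)) * n := by
  set f := (powMonoidHom k : Fˣ →* Fˣ).comp K.subtype
  have h := f.ker.card_mul_index
  rw [Subgroup.index_ker, MonoidHom.range_comp, Subgroup.range_subtype] at h
  rw [← h, mul_comm]
  refine Nat.mul_dvd_mul_left _ ?_
  rw [← IsCyclic.exponent_eq_card (α := f.ker)]
  exact Monoid.exponent_dvd_of_forall_pow_eq_one fun c => Subtype.ext (Subtype.ext (hn c.1.1 c.1.2 c.2))

/-- The line group bound without transvections and without radical part. -/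
theorem line_trivial (hT : ∀ x : X D, ∃ h ∈ H, h • x0 D = x) (hq : 4 ≤ q)
    (hz : Nat.card (Zs D H) = 1) (ha : Nat.card (As D H) = 1) (hK : Ks D H = ⊤) :
    (q = 4 → False) ∧ q ≤ 6 := by
  classical
  obtain ⟨ζ, hζ⟩ := IsCyclic.exists_generator (α := Fˣ)
  have hoζ : orderOf ζ = (q - 1) * (q + 1) := by
    rw [orderOf_eq_card_of_forall_mem_zpowers hζ, H3.card_units_eq D.hF]
  set c := ζ ^ (q - 1) with hc
  have hco : orderOf c = q + 1 := by
    rw [hc, orderOf_pow' _ (by omega), hoζ, Nat.gcd_eq_right (dvd_mul_right _ _),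
      Nat.mul_div_cancel_left _ (by omega)]
  obtain ⟨g, hg, hgc⟩ := (mem_Ks D H).mp (show c ∈ Ks D H from hK ▸ Subgroup.mem_top c)
  have h1 : χ D g ^ (q + 1) = 1 := by rw [hgc, ← hco, pow_orderOf_eq_one]
  have h3 : χ D g ^ 3 ≠ 1 := fun e => by
    rw [hgc] at e
    have := Nat.le_of_dvd (by norm_num) (orderOf_dvd_of_pow_eq_one e)
    omega
  obtain ⟨u, hu, hW⟩ := conj_into_W g h1 h3
  set H' := H.map (MulAut.conj u).toMonoidHom with hH'
  obtain ⟨eZ, eA, eK⟩ := data_conj D H hu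
  have hT' : ∀ x : X D, ∃ h ∈ H', h • x0 D = x := by
    intro x
    obtain ⟨h, hh, e⟩ := hT (u⁻¹ • x)
    refine ⟨u * h * u⁻¹, ⟨h, hh, rfl⟩, ?_⟩
    have hfix : u⁻¹ • x0 D = x0 D := (fix_x0 D).mpr (Qg_le_pst D (Subgroup.inv_mem _ hu))
    rw [mul_smul, mul_smul, hfix, e, smul_inv_smul]
  have hz' : Nat.card (Zs D H') = 1 := by rw [eZ]; exact hz
  have ha' : Nat.card (As D H') = 1 := by rw [eA]; exact ha
  -- the scalar is injective on the stabiliser
  have hinj : ∀ k k' : pst D 1, k.1 ∈ H' → k'.1 ∈ H' → χ D k = χ D k' → k = k' := by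
    intro k k' hk hk' e
    have hQ : (k⁻¹ * k').1 ∈ Qg D 1 := (χ_ker D _).mp (by rw [map_mul, map_inv, e, inv_mul_cancel])
    have hc := card_radical D H'
    rw [hz', ha', one_mul] at hc
    have := Subgroup.eq_bot_of_card_eq _ hc
    have h1 : (⟨_, hQ⟩ : Qg D 1) ∈ H'.subgroupOf (Qg D 1) := H'.mul_mem (H'.inv_mem hk) hk'
    rw [this, Subgroup.mem_bot] at h1
    have h2 : (k⁻¹ * k').1 = 1 := congrArg Subtype.val h1
    exact inv_mul_eq_one.mp (Subtype.ext h2)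
  set g' : pst D 1 := ⟨u, Qg_le_pst D hu⟩ * g * ⟨u, Qg_le_pst D hu⟩⁻¹ with hg'
  have hg'H : g'.1 ∈ H' := ⟨g.1, hg, rfl⟩
  have hg'c : χ D g' = c := by
    rw [hg', map_mul, map_mul, map_inv, mul_inv_cancel_comm, hgc]
  let h' : Mw H' := ⟨g'.1, hg'H, hW⟩
  have hh : ∀ v, InPl D v → act h'.1 v = (c : F) • v := by
    have := scalar_plane hz' (g := h') g'.2 (by
      show χ D g' ^ (q + 1) = 1
      rw [hg'c, ← hco, pow_orderOf_eq_one])
    intro v hv
    rw [this v hv, show (⟨g'.1, g'.2⟩ : pst D 1) = g' from rfl, hg'c]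
  have hμ : act h'.1 u1 = (c : F) ^ (q - 1) • u1 := by
    rw [← hg'c]; exact mu_eq (g := g') hW
  have hne : ∀ d : Fˣ, d ^ (q + 1) = 1 → d ^ 3 ≠ 1 → (d : F) ^ (q - 1) ≠ (d : F) := by
    intro d hd hd3 e
    refine hd3 (Units.ext ?_)
    push_cast
    have hd' : (d : F) ^ (q + 1) = 1 := by rw [← Units.val_pow_eq_pow_val, hd, Units.val_one]
    rw [← hd', show q + 1 = (q - 1) + 2 by omega, pow_add, e]
    ring
  have hcne : (c : F) ^ (q - 1) ≠ (c : F) := hne c (by rw [← hco, pow_orderOf_eq_one]) (hgc ▸ h3)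
  have hW' : ∀ k : pst D 1, k.1 ∈ H' → k.1 ∈ Wst (F := F) (q := q) := by
    intro k hk
    have e : k⁻¹ * g' * k = g' := hinj _ _ (H'.mul_mem (H'.mul_mem (H'.inv_mem hk) hg'H) hk) hg'H (by
      rw [map_mul, map_mul, map_inv, inv_mul_cancel_comm])
    have e' : k.1⁻¹ * h'.1 * k.1 = h'.1 := congrArg Subtype.val e
    refine wst_of_conj hh hμ hcne (g := k.1) ?_ ?_ hcne
    · rw [e']; exact hh _ (inPl_p D)
    · rw [e']; exact hμ
  have htr : ∀ y : L D, ∃ m : Mw H', m • y0 D = y := by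
    intro y
    obtain ⟨m, hm, hmy⟩ := hT' y.1
    have hfix : h'.1 • y.1 = y.1 := fix_of_eigen D (hh _ y.2)
    have hk : m⁻¹ * h'.1 * m ∈ pst D 1 := (fix_x0 D).mp (by rw [mul_smul, mul_smul, hmy, hfix, ← hmy, inv_smul_smul])
    set k : pst D 1 := ⟨_, hk⟩
    have hkH : k.1 ∈ H' := H'.mul_mem (H'.mul_mem (H'.inv_mem hm) hg'H) hm
    have hkord : ∀ n : ℕ, χ D k ^ n = 1 ↔ c ^ n = 1 := by
      intro n
      have hkn : (k ^ n).1 = m⁻¹ * (g' ^ n).1 * m := by
        show (m⁻¹ * g'.1 * m) ^ n = m⁻¹ * g'.1 ^ n * m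
        conv_lhs => rw [show m⁻¹ * g'.1 * m = m⁻¹ * g'.1 * m⁻¹⁻¹ by rw [inv_inv]]
        rw [conj_pow, inv_inv]
      rw [← map_pow, ← hg'c, ← map_pow]
      constructor
      · intro h
        have hk1 : k ^ n = 1 := hinj _ 1 (H'.pow_mem hkH n) H'.one_mem (h.trans (map_one _).symm)
        have : g' ^ n = 1 := by
          refine Subtype.ext ?_
          have h2 := congrArg Subtype.val hk1
          rw [hkn, OneMemClass.coe_one, mul_assoc, inv_mul_eq_one] at h2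
          exact right_eq_mul.mp h2
        rw [this, map_one]
      · intro h
        have hg1 : g' ^ n = 1 := hinj _ 1 (H'.pow_mem hg'H n) H'.one_mem (h.trans (map_one _).symm)
        have : k ^ n = 1 := Subtype.ext (by rw [hkn, hg1, OneMemClass.coe_one, mul_one, inv_mul_cancel])
        rw [this, map_one]
    have hk1 : χ D k ^ (q + 1) = 1 := (hkord _).mpr (by rw [← hco, pow_orderOf_eq_one])
    have hk3 : χ D k ^ 3 ≠ 1 := fun e => (hgc ▸ h3) ((hkord 3).mp e)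
    refine ⟨⟨m, hm, wst_of_conj hh hμ hcne (g := m) (act_p_χ D k) (mu_eq (hW' k hkH)) (hne _ hk1 hk3)⟩, ?_⟩
    exact Subtype.ext hmy
  obtain ⟨hd5, hq4, -⟩ := line_result_one htr hz' (by omega)
  have hKw : Kw D H' = ⊤ := by
    rw [eq_top_iff]
    intro d _
    obtain ⟨k, hk, rfl⟩ := (mem_Ks D H').mp (show d ∈ Ks D H' from eK ▸ hK ▸ Subgroup.mem_top d)
    exact ⟨k, ⟨hk, hW' k hk⟩, rfl⟩
  have hNle : Nat.card (Nw D H') ∣ q - 1 := by
    refine card_dvd_of_pow _ _ ?_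
    rintro _ ⟨d, -, rfl⟩
    show (d ^ (q + 1)) ^ (q - 1) = 1
    rw [← pow_mul, mul_comm, ← H3.card_units_eq D.hF, pow_card_eq_one']
  have hdiv : (q - 1) * (q + 1) ∣ Nat.card (Nw D H') * (q + 1) := by
    have := card_dvd_map_pow (Kw D H') (q + 1) (q + 1) fun d h => h
    rw [hKw, Subgroup.card_top, H3.card_units_eq D.hF] at this
    rw [Nw, hKw]
    exact this
  have heq : Nat.card (Nw D H') = q - 1 :=
    Nat.dvd_antisymm hNle (Nat.dvd_of_mul_dvd_mul_right (by omega) hdiv)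
  rw [heq] at hd5 hq4
  exact ⟨fun h => hq4 ⟨h, by omega⟩, by omega⟩

/-- A two-dimensional space contains an isotropic vector. -/
theorem exists_iso_pair (hF : Fintype.card F = q ^ 2) {n : ℕ} {u v : Fin n → F}
    (h : LinearIndependent F ![u, v]) : ∃ a b : F, a • u + b • v ≠ 0 ∧ ⟪a • u + b • v, a • u + b • v⟫ = 0 := by
  have hne : ∀ a b : F, a • u + b • v = 0 → a = 0 ∧ b = 0 := LinearIndependent.pair_iff.mp h
  by_cases hv : ⟪v, v⟫ = 0
  · refine ⟨0, 1, fun e => one_ne_zero (α := F) (hne 0 1 e).2, ?_⟩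
    rw [zero_smul, zero_add, one_smul, hv]
  obtain ⟨k, hk⟩ : ∃ k, k = ⟪u, v⟫ / ⟪v, v⟫ := ⟨_, rfl⟩
  obtain ⟨u', hu'⟩ : ∃ u', u' = u - k • v := ⟨_, rfl⟩
  have h1 : ⟪u', v⟫ = 0 := by
    rw [hu', hsub_l hF, hsmul_l hF, hk, div_mul_cancel₀ _ hv, sub_self]
  obtain ⟨l, hl⟩ := H3.exists_norm_eq hF (μ := -⟪u', u'⟫ / ⟪v, v⟫)
    (by rw [div_pow, qneg hF, hswap hF, hswap hF])
  have hl' : l * l ^ q * ⟪v, v⟫ = -⟪u', u'⟫ := by
    rw [← pow_succ', hl, div_mul_cancel₀ _ hv]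
  have he : (1 : F) • u + (l - k) • v = u' + l • v := by rw [hu']; module
  refine ⟨1, l - k, fun e => one_ne_zero (α := F) (hne _ _ e).1, ?_⟩
  rw [he]
  simp only [hadd_l hF, hadd_r hF, hsmul_l hF, hsmul_r hF, h1, hswap_zero hF h1]
  linear_combination hl'

/-- An involution fixes an isotropic point. -/
theorem invol_fixes (h20 : (2 : F) ≠ 0) {g : Cfsg.SU (2 + 1) F q} (h2 : g * g = 1) :
    ∃ x : X D, g • x = x := by
  let f : (Fin (2 + 1) → F) →ₗ[F] (Fin (2 + 1) → F) :=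
    Matrix.mulVecLin (g.1 : Matrix (Fin (2 + 1)) (Fin (2 + 1)) F)
  have hf : ∀ v, f v = act g v := fun v => rfl
  have hff : ∀ v, act g (act g v) = v := fun v => by rw [← act_mul, h2, act_one]
  let P := LinearMap.ker (f - LinearMap.id)
  let N := LinearMap.ker (f + LinearMap.id)
  have hsup : P ⊔ N = ⊤ := by
    rw [eq_top_iff]
    intro v _
    refine Submodule.mem_sup.mpr ⟨(2 : F)⁻¹ • (v + act g v), ?_, (2 : F)⁻¹ • (v - act g v), ?_, ?_⟩
    · simp only [P, LinearMap.mem_ker, LinearMap.sub_apply, LinearMap.id_apply, hf, act_smul, act_add, hff]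
      module
    · simp only [N, LinearMap.mem_ker, LinearMap.add_apply, LinearMap.id_apply, hf, act_smul, act_sub, hff]
      module
    · rw [← smul_add, show v + act g v + (v - act g v) = (2 : F) • v by module, smul_smul,
        inv_mul_cancel₀ h20, one_smul]
  have hdim := Submodule.finrank_add_le_finrank_add_finrank P N
  rw [hsup, finrank_top, Module.finrank_fin_fun] at hdim
  have key : ∀ (W : Submodule F (Fin (2 + 1) → F)) (e : F), 1 < Module.finrank F W →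
      (∀ v ∈ W, act g v = e • v) → ∃ x : X D, g • x = x := by
    intro W e hW he
    obtain ⟨w, hw⟩ := exists_linearIndependent_of_le_finrank (R := F) (M := W) (n := 2) hW
    have hw' : LinearIndependent F ![(w 0).1, (w 1).1] := by
      have h0 := hw.map' W.subtype (Submodule.ker_subtype W)
      have e : ![(w 0).1, (w 1).1] = W.subtype ∘ w := by funext i; fin_cases i <;> rfl
      rw [e]; exact h0
    obtain ⟨a, b, hne, hiso⟩ := exists_iso_pair D.hF hw'
    obtain ⟨x, c, hc, ec⟩ := exists_point D hne hiso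
    refine ⟨x, fix_of_eigen D (l := e) ?_⟩
    have := he _ (W.add_mem (W.smul_mem a (w 0).2) (W.smul_mem b (w 1).2))
    rw [ec, act_smul, this, smul_comm]
  rcases Nat.lt_or_ge 1 (Module.finrank F P) with hP | hP
  · exact key P 1 hP fun v hv => by
      rw [one_smul]
      exact sub_eq_zero.mp hv
  · exact key N (-1) (by omega) fun v hv => by
      rw [neg_one_smul]
      exact eq_neg_of_add_eq_zero_left hv

/-- A full radical image puts the scalars on a real line, with an involution among them. -/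
theorem full_data (hT : ∀ x : X D, ∃ h ∈ H, h • x0 D = x) (hq : 3 ≤ q) (hodd : ¬ 2 ∣ q) (h20 : (2 : F) ≠ 0)
    (hz : Nat.card (Zs D H) = 1) (ha : Nat.card (As D H) = q) :
    Nat.card (Ks D H) ∣ 3 * (q - 1) ∧ (∀ c ∈ Ks D H, (c ^ (2 * q - 1)) ^ (q - 1) = 1) ∧
      ∃ τ : pst D 1, τ.1 ∈ H ∧ χ D τ = -1 := by
  classical
  -- all parameters lie on one real line
  have hlam : ∀ c ∈ Ks D H, (c ^ (2 * q - 1)) ^ (q - 1) = 1 := by
    intro c hc
    obtain ⟨v, hv, hv0⟩ : ∃ v ∈ As D H, v ≠ 0 := by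
      by_contra h
      push Not at h
      rw [show As D H = ⊥ from eq_bot_iff.mpr fun v hv => by simp [h v hv], AddSubgroup.card_bot] at ha
      omega
    obtain ⟨l, hl⟩ : ∃ l, l = ((c ^ (2 * q - 1) : Fˣ) : F) := ⟨_, rfl⟩
    have h1 := As_stable D H hc hv
    rw [← hl] at h1
    have h2 := comm_mem D H h1 hv
    rw [AddSubgroup.eq_bot_of_card_eq _ hz, AddSubgroup.mem_bot, mul_pow] at h2
    have h3 : l ^ q = l := by
      refine mul_right_cancel₀ (mul_ne_zero hv0 (pow_ne_zero q hv0)) ?_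
      linear_combination (-1 : F) * h2
    refine Units.ext ?_
    rw [Units.val_pow_eq_pow_val, ← hl, Units.val_one]
    have hl0 : l ≠ 0 := hl ▸ Units.ne_zero _
    refine mul_right_cancel₀ hl0 ?_
    rw [← pow_succ, show q - 1 + 1 = q by omega, h3, one_mul]
  have h3q : Nat.card (Ks D H) ∣ 3 * (q - 1) := by
    refine card_dvd_of_pow _ _ fun c hc => ?_
    rw [mul_comm, pow_mul]
    exact (pow_A_one D (c := c ^ (q - 1)) (by rw [← pow_mul, mul_comm, pow_mul]; exact hlam c hc)).1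
  -- an involution fixes a point, so one lies in the stabiliser
  obtain ⟨τ, hτH, hτc⟩ : ∃ τ : pst D 1, τ.1 ∈ H ∧ χ D τ = -1 := by
    haveI : Fact (Nat.Prime 2) := ⟨Nat.prime_two⟩
    have h2 : 2 ∣ Nat.card H := by
      rw [card_H D H hT]
      refine Dvd.dvd.mul_right ?_ _
      have h1 : (q ^ 3 + 1) % 2 = 0 := by rw [Nat.add_mod, Nat.pow_mod, Nat.two_dvd_ne_zero.mp hodd]
      exact Nat.dvd_of_mod_eq_zero h1
    obtain ⟨⟨x, hxH⟩, hx⟩ := exists_prime_orderOf_dvd_card' 2 h2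
    rw [Subgroup.orderOf_mk] at hx
    have hxx : x * x = 1 := by have := pow_orderOf_eq_one x; rwa [hx, sq] at this
    obtain ⟨y, hy⟩ := invol_fixes (D := D) h20 hxx
    obtain ⟨h, hh, e⟩ := hT y
    have hm : h⁻¹ * x * h ∈ pst D 1 := (fix_x0 D).mp (by rw [mul_smul, mul_smul, e, hy, ← e, inv_smul_smul])
    refine ⟨⟨_, hm⟩, H.mul_mem (H.mul_mem (H.inv_mem hh) hxH) hh, ?_⟩
    set k : pst D 1 := ⟨_, hm⟩
    have hk2 : k * k = 1 := Subtype.ext (by
      show h⁻¹ * x * h * (h⁻¹ * x * h) = 1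
      rw [show h⁻¹ * x * h * (h⁻¹ * x * h) = h⁻¹ * (x * x) * h by group, hxx, mul_one, inv_mul_cancel])
    have hsq : (χ D k : F) * (χ D k : F) = 1 := by rw [← Units.val_mul, ← map_mul, hk2, map_one, Units.val_one]
    rcases mul_self_eq_one_iff.mp hsq with e1 | e1
    · exfalso
      have hQ : k.1 ∈ Qg D 1 := (χ_ker D k).mp (Units.ext e1)
      have hd : orderOf x ∣ q ^ 3 := by
        have h1 := orderOf_dvd_natCard (⟨k.1, hQ⟩ : Qg D 1)
        rw [card_Qg, Subgroup.orderOf_mk] at h1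
        have e2 : orderOf k.1 = orderOf x := by
          show orderOf (h⁻¹ * x * h) = _
          conv_lhs => rw [show h⁻¹ * x * h = MulAut.conj h⁻¹ x by simp]
          exact MulEquiv.orderOf_eq _ _
        rwa [e2] at h1
      rw [hx] at hd
      exact hodd (Nat.prime_two.dvd_of_dvd_pow hd)
    · exact Units.ext (by rw [e1, Units.val_neg, Units.val_one])
  exact ⟨h3q, hlam, τ, hτH, hτc⟩

omit [Fintype F] in
lemma neg_one_ne (h20 : (2 : F) ≠ 0) : (-1 : Fˣ) ≠ 1 := fun e => h20 (by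
  have := congrArg Units.val e
  rw [Units.val_neg, Units.val_one] at this
  linear_combination (-1 : F) * this)

/-- Involutions in the stabiliser of the base point are conjugate under the radical part. -/
theorem invol_conj (h20 : (2 : F) ≠ 0) (hodd : ¬ 2 ∣ q) (hz : Nat.card (Zs D H) = 1) (t : pst D 1)
    (htH : t.1 ∈ H) (htc : χ D t = -1) (htt : t * t = 1) (htu : act t.1 u1 = u1)
    {k : pst D 1} (hk : k.1 ∈ H) (hk2 : k * k = 1) (hk1 : k ≠ 1) :
    ∃ s : pst D 1, s.1 ∈ H ∧ χ D s = 1 ∧ k = s * t * s⁻¹ := by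
  classical
  have hneg := neg_one_ne (F := F) h20
  have hinvol : ∀ k : pst D 1, k * k = 1 → k ≠ 1 → χ D k = -1 := by
    intro k hk2 hk1
    have hsq : (χ D k : F) * (χ D k : F) = 1 := by rw [← Units.val_mul, ← map_mul, hk2, map_one, Units.val_one]
    rcases mul_self_eq_one_iff.mp hsq with e1 | e1
    · exfalso
      have hQ : k.1 ∈ Qg D 1 := (χ_ker D k).mp (Units.ext e1)
      have h1 := orderOf_dvd_natCard (⟨k.1, hQ⟩ : Qg D 1)
      rw [card_Qg, Subgroup.orderOf_mk, orderOf_eq_prime (p := 2) (by rw [sq]; exact congrArg Subtype.val hk2)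
        (fun e => hk1 (Subtype.ext e))] at h1
      exact hodd (Nat.prime_two.dvd_of_dvd_pow h1)
    · exact Units.ext (by rw [e1, Units.val_neg, Units.val_one])
  have hcomm : ∀ r : pst D 1, r.1 ∈ H → χ D r = 1 → t * r * t⁻¹ = r → r = 1 := by
    intro r hr hr1 e
    obtain ⟨w, a, hok, hw⟩ := (χ_ker D r).mp hr1
    have e' : t.1 * El D w a * t.1⁻¹ = El D w a := by rw [← hw]; exact congrArg Subtype.val e
    have htp : act t.1 (D.p 1) = (-1 : F) • D.p 1 := by
      rw [act_p_χ D t, htc, Units.val_neg, Units.val_one]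
    have htw : act t.1 (up w) = up w := by rw [up_eq, act_smul, htu]
    have hq1 : (-1 : F) ^ q = -1 := Odd.neg_one_pow (Nat.odd_iff.mpr (Nat.two_dvd_ne_zero.mp hodd))
    have hok2 := ok_act t.1 (ok_of hok D)
    rw [htp, htw] at hok2
    rw [El, E_conj D.hF _ (ok_of hok D), htp, htw, E_smul D.hF (neg_ne_zero.mpr one_ne_zero) hok2, hq1,
      neg_one_smul, ← map_neg] at e'
    have hokn : OkW q (-w) ((-1 : F) * (-1) * a) := by
      rw [OkW, neg_mul_neg, one_mul, one_mul, hneg_l D.hF, hneg_r D.hF, neg_neg]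
      exact hok
    obtain ⟨e1, -⟩ := El_inj hokn hok e'
    have hw0 : w = 0 := by
      funext i
      have h := congrFun e1 i
      rw [Pi.neg_apply] at h
      have : (2 : F) * w i = 0 := by linear_combination (-1 : F) * h
      exact (mul_eq_zero.mp this).resolve_left h20
    subst hw0
    have haz : a ∈ Zs D H := (mem_Zs D H).mpr ⟨by
      have := hok
      rwa [OkW, hzero_l D.hF, add_zero] at this, hw ▸ hr⟩
    rw [AddSubgroup.eq_bot_of_card_eq _ hz, AddSubgroup.mem_bot] at haz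
    exact Subtype.ext (by rw [hw, haz, El_zero, OneMemClass.coe_one])
  let S := {s : pst D 1 // s.1 ∈ H ∧ χ D s = 1}
  let T := {k : pst D 1 // k.1 ∈ H ∧ k * k = 1 ∧ χ D k = -1}
  have ht1 : t ≠ 1 := fun e => hneg (by rw [← htc, e, map_one])
  let Φ : S → T := fun s => ⟨s.1 * t * s.1⁻¹, H.mul_mem (H.mul_mem s.2.1 htH) (H.inv_mem s.2.1), by
    rw [show s.1 * t * s.1⁻¹ * (s.1 * t * s.1⁻¹) = s.1 * (t * t) * s.1⁻¹ by group, htt, mul_one, mul_inv_cancel],
    by rw [map_mul, map_mul, map_inv, mul_inv_cancel_comm, htc]⟩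
  have hΦ : Function.Injective Φ := by
    intro s s' e
    have e' : s.1 * t * s.1⁻¹ = s'.1 * t * s'.1⁻¹ := congrArg (fun x : T => x.1) e
    have h1 := hcomm (s'.1⁻¹ * s.1) (H.mul_mem (H.inv_mem s'.2.1) s.2.1)
      (by rw [map_mul, map_inv, s.2.2, s'.2.2, inv_one, one_mul]) (by
        have : t * (s'.1⁻¹ * s.1) * t⁻¹ = s'.1⁻¹ * (s'.1 * t * s'.1⁻¹) * s.1 * t⁻¹ := by group
        rw [this, ← e']; group)
    exact Subtype.ext (inv_mul_eq_one.mp h1).symm
  have hle : Nat.card T ≤ Nat.card S := Nat.card_le_card_of_injective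
    (fun k : T => (⟨k.1 * t, H.mul_mem k.2.1 htH, by rw [map_mul, k.2.2.2, htc, neg_mul_neg, one_mul]⟩ : S))
    (fun a b e => Subtype.ext (mul_right_cancel (congrArg (fun x : S => x.1) e)))
  have hbij := hΦ.bijective_of_nat_card_le hle
  obtain ⟨s, hs⟩ := hbij.2 ⟨k, hk, hk2, hinvol k hk2 hk1⟩
  exact ⟨s.1, s.2.1, s.2.2, (congrArg (fun x : T => x.1) hs).symm⟩

/-- The line group bound without transvections and with a full radical image. -/
theorem line_full (hT : ∀ x : X D, ∃ h ∈ H, h • x0 D = x) (hq : 3 ≤ q) (hodd : ¬ 2 ∣ q) (h20 : (2 : F) ≠ 0)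
    (hz : Nat.card (Zs D H) = 1) (ha : Nat.card (As D H) = q) :
    Nat.card (Ks D H) ∣ 3 * (q - 1) ∧ 2 ∣ Nat.card (Ks D H) ∧
      ∃ d, 0 < d ∧ Nat.card (Ks D H) ∣ 6 * d ∧ d ≤ 5 ∧ ¬ (q = 17 ∧ d = 4) := by
  classical
  obtain ⟨h3q, hlam, τ, hτH, hτc⟩ := full_data hT hq hodd h20 hz ha
  have hneg := neg_one_ne (F := F) h20
  have h2K : 2 ∣ Nat.card (Ks D H) := by
    have hm : (-1 : Fˣ) ∈ Ks D H := (mem_Ks D H).mpr ⟨τ, hτH, hτc⟩
    have h1 := orderOf_dvd_natCard (⟨_, hm⟩ : Ks D H)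
    rwa [Subgroup.orderOf_mk, orderOf_eq_prime (p := 2) (by rw [neg_one_sq]) hneg] at h1
  refine ⟨h3q, h2K, ?_⟩
  have hoddq : Odd q := Nat.odd_iff.mpr (Nat.two_dvd_ne_zero.mp hodd)
  have hm1 : (-1 : Fˣ) ^ (q + 1) = 1 := Even.neg_one_pow hoddq.add_one
  obtain ⟨u, hu, hW⟩ := conj_into_W τ (by rw [hτc, hm1]) (by
    rw [hτc, Odd.neg_one_pow (show Odd 3 from ⟨1, rfl⟩)]; exact hneg)
  set H' := H.map (MulAut.conj u).toMonoidHom with hH'
  obtain ⟨eZ, eA, eK⟩ := data_conj D H hu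
  have hT' : ∀ x : X D, ∃ h ∈ H', h • x0 D = x := by
    intro x
    obtain ⟨h, hh, e⟩ := hT (u⁻¹ • x)
    refine ⟨u * h * u⁻¹, ⟨h, hh, rfl⟩, ?_⟩
    have hfix : u⁻¹ • x0 D = x0 D := (fix_x0 D).mpr (Qg_le_pst D (Subgroup.inv_mem _ hu))
    rw [mul_smul, mul_smul, hfix, e, smul_inv_smul]
  have hz' : Nat.card (Zs D H') = 1 := by rw [eZ]; exact hz
  set t : pst D 1 := ⟨u, Qg_le_pst D hu⟩ * τ * ⟨u, Qg_le_pst D hu⟩⁻¹ with ht
  have htH : t.1 ∈ H' := ⟨τ.1, hτH, rfl⟩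
  have htc : χ D t = -1 := by rw [ht, map_mul, map_mul, map_inv, mul_inv_cancel_comm, hτc]
  have hh : ∀ v, InPl D v → act t.1 v = (-1 : F) • v := by
    intro v hv
    have := scalar_plane hz' (g := (⟨t.1, htH, hW⟩ : Mw H')) t.2 (by show χ D t ^ (q + 1) = 1; rw [htc, hm1]) v hv
    rwa [show (⟨t.1, t.2⟩ : pst D 1) = t from rfl, htc, Units.val_neg, Units.val_one] at this
  have hμ : act t.1 u1 = (1 : F) • u1 := by
    have := mu_eq (g := t) hW
    rwa [htc, Units.val_neg, Units.val_one, Even.neg_one_pow (Nat.Odd.sub_odd hoddq odd_one)] at this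
  have hne1 : (1 : F) ≠ -1 := fun e => h20 (by linear_combination e)
  have htt : t * t = 1 := by
    refine Subtype.ext (ext_act fun v => ?_)
    show act (t.1 * t.1) v = act 1 v
    rw [act_one, act_mul]
    conv_lhs => rw [decomp3 D v]
    conv_rhs => rw [decomp3 D v]
    simp only [act_add, act_smul, hh _ (inPl_p D), hh _ (inPl_p' D), hμ]
    module
  have ht1 : t ≠ 1 := fun e => hneg (by rw [← htc, e, map_one])
  have hcen : ∀ g : Cfsg.SU (2 + 1) F q, g⁻¹ * t.1 * g = t.1 → g ∈ Wst (F := F) (q := q) := by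
    intro g e
    refine wst_of_conj hh hμ hne1 (g := g) (c₁ := -1) (μ₁ := 1) ?_ ?_ hne1
    · rw [e]; exact hh _ (inPl_p D)
    · rw [e]; exact hμ
  -- adjusting an element by the radical part
  have adjust : ∀ m : Cfsg.SU (2 + 1) F q, m ∈ H' → ∀ hk : m⁻¹ * t.1 * m ∈ pst D 1,
      ∃ s : pst D 1, s.1 ∈ H' ∧ χ D s = 1 ∧ m * s.1 ∈ Wst (F := F) (q := q) := by
    intro m hm hk
    obtain ⟨s, hs, hs1, e⟩ := invol_conj (H := H') h20 hodd hz' t htH htc htt (hμ.trans (one_smul _ _))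
      (k := ⟨_, hk⟩) (H'.mul_mem (H'.mul_mem (H'.inv_mem hm) htH) hm) (Subtype.ext (by
        show m⁻¹ * t.1 * m * (m⁻¹ * t.1 * m) = 1
        have htt1 : t.1 * t.1 = 1 := congrArg Subtype.val htt
        rw [show m⁻¹ * t.1 * m * (m⁻¹ * t.1 * m) = m⁻¹ * (t.1 * t.1) * m from by simp [mul_assoc], htt1,
          mul_one, inv_mul_cancel]))
      (fun e => ht1 (Subtype.ext (by
        have e' : m⁻¹ * t.1 * m = 1 := congrArg Subtype.val e
        rw [mul_assoc, inv_mul_eq_one] at e'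
        exact right_eq_mul.mp e')))
    refine ⟨s, hs, hs1, hcen _ ?_⟩
    have e' : m⁻¹ * t.1 * m = s.1 * t.1 * s.1⁻¹ := congrArg Subtype.val e
    calc (m * s.1)⁻¹ * t.1 * (m * s.1) = s.1⁻¹ * (m⁻¹ * t.1 * m) * s.1 := by group
      _ = t.1 := by rw [e']; group
  have htr : ∀ y : L D, ∃ g : Mw H', g • y0 D = y := by
    intro y
    obtain ⟨m, hm, hmy⟩ := hT' y.1
    have hfix : t.1 • y.1 = y.1 := fix_of_eigen D (hh _ y.2)
    obtain ⟨s, hs, hs1, hW'⟩ := adjust m hm ((fix_x0 D).mp (by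
      rw [mul_smul, mul_smul, hmy, hfix, ← hmy, inv_smul_smul]))
    refine ⟨⟨m * s.1, H'.mul_mem hm hs, hW'⟩, Subtype.ext ?_⟩
    show (m * s.1) • x0 D = y.1
    rw [mul_smul, (fix_x0 D).mpr s.2, hmy]
  obtain ⟨hd5, -, h17⟩ := line_result_one htr hz' hq
  have hKw : Kw D H' = Ks D H' := by
    refine le_antisymm ?_ fun c hc => ?_
    · rintro _ ⟨k, hk, rfl⟩
      exact (mem_Ks D H').mpr ⟨k, hk.1, rfl⟩
    · obtain ⟨k, hk, rfl⟩ := (mem_Ks D H').mp hc
      obtain ⟨s, hs, hs1, hW'⟩ := adjust k.1 hk ((pst D 1).mul_mem ((pst D 1).mul_mem ((pst D 1).inv_mem k.2) t.2) k.2)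
      exact ⟨k * s, ⟨H'.mul_mem hk hs, hW'⟩, by rw [map_mul, hs1, mul_one]⟩
  refine ⟨Nat.card (Nw D H'), Nat.card_pos, ?_, hd5, h17⟩
  rw [← eK, ← hKw, mul_comm]
  refine card_dvd_map_pow_rel _ _ _ fun c hc hc1 => ?_
  have hl := hlam c (eK ▸ hKw ▸ hc)
  rw [← pow_mul] at hl
  obtain ⟨r, hr⟩ : ∃ r, q = r + 3 := ⟨q - 3, by omega⟩
  have e : (2 * q - 1) * (q - 1) = (q + 1) * (2 * r + 1) + 6 := by
    subst hr
    rw [show 2 * (r + 3) - 1 = 2 * r + 5 by omega, show r + 3 - 1 = r + 2 by omega]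
    ring
  rwa [e, pow_add, pow_mul, hc1, one_pow, one_mul] at hl

end Cfsg.Agent.H2.MinU.S3
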