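import Mathlib

/-!
Counting in a transitive group whose non-trivial elements fix at most two points and whose
fixed-point-free elements fall into small commutative subgroups.
-/

set_option autoImplicit false

namespace Cfsg.Agent.H2.MinU.S3

open MulAction

variable {M L : Type*} [Group M] [Finite M] [MulAction M L] [Finite L]

variable (M L) in
/-- The elements without fixed points. -/
def Free : Set M := {g | fixedBy L g = ∅}

/-- Conjugation acts on fixed sets. -/
lemma fixedBy_conj_eq (a g : M) (y : L) : a • y ∈ fixedBy L (a * g * a⁻¹) ↔ y ∈ fixedBy L g := by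
  simp [mem_fixedBy, mul_smul]

/-- The number of fixed-point-free elements. -/
theorem card_free [IsPretransitive M L] (y₀ : L) {z d : ℕ}
    (hfix : ∀ g : M, g ≠ 1 → (fixedBy L g).ncard ≤ 2)
    (hst : Nat.card (stabilizer M y₀) = z * d)
    (hone : {g : M | g ≠ 1 ∧ fixedBy L g = {y₀}}.ncard + 1 = z) :
    Nat.card M = Nat.card L * (z * d) ∧
      2 * (Free M L).ncard + Nat.card L * z + 2 = Nat.card L * (z * d) + 2 * Nat.card L := by
  classical
  have := Fintype.ofFinite M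
  have := Fintype.ofFinite L
  have hcard : Nat.card M = Nat.card L * (z * d) := by
    rw [← (stabilizer M y₀).card_mul_index, index_stabilizer_of_transitive, hst, mul_comm]
  refine ⟨hcard, ?_⟩
  set f : M → ℕ := fun g => (fixedBy L g).ncard with hf
  -- the number with exactly one fixed point
  have hN1 : (Finset.univ.filter fun g : M => g ≠ 1 ∧ f g = 1).card = Nat.card L * (z - 1) := by
    rw [← Fintype.card_subtype, ← Nat.card_eq_fintype_card]
    let e : {g : M // g ≠ 1 ∧ f g = 1} ≃ Σ y : L, {g : M // g ≠ 1 ∧ fixedBy L g = {y}} :=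
      { toFun := fun g =>
          ⟨(Set.ncard_eq_one.mp g.2.2).choose, g.1, g.2.1, (Set.ncard_eq_one.mp g.2.2).choose_spec⟩
        invFun := fun p => ⟨p.2.1, p.2.2.1, by simp [hf, p.2.2.2]⟩
        left_inv := fun g => rfl
        right_inv := by
          rintro ⟨y, g, h1, h2⟩
          have hg : f g = 1 := by simp [hf, h2]
          have := (Set.ncard_eq_one.mp hg).choose_spec
          have hy : (Set.ncard_eq_one.mp hg).choose = y := Set.singleton_injective (this.symm.trans h2)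
          exact Sigma.subtype_ext hy rfl }
    rw [Nat.card_congr e, Nat.card_sigma]
    have h : ∀ y : L, Nat.card {g : M // g ≠ 1 ∧ fixedBy L g = {y}} = z - 1 := by
      intro y
      obtain ⟨a, rfl⟩ := exists_smul_eq M y₀ y
      rw [← hone, Nat.add_sub_cancel, ← Nat.card_coe_set_eq]
      refine (Nat.card_congr (Equiv.subtypeEquiv (MulAut.conj a).toEquiv fun g => ?_)).symm
      show (g ≠ 1 ∧ fixedBy L g = {y₀}) ↔ (a * g * a⁻¹ ≠ 1 ∧ fixedBy L (a * g * a⁻¹) = {a • y₀})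
      refine and_congr (not_congr conj_eq_one_iff.symm) ?_
      constructor
      · intro h
        ext w
        obtain ⟨v, rfl⟩ := (MulAction.toPerm a).surjective w
        rw [MulAction.toPerm_apply, fixedBy_conj_eq, h]
        simp
      · intro h
        ext v
        rw [← fixedBy_conj_eq a, h]
        simp
    rw [Finset.sum_congr rfl fun y _ => h y, Finset.sum_const, smul_eq_mul, Finset.card_univ, Nat.card_eq_fintype_card]
  -- Burnside
  have hB : ∑ g : M, f g = Nat.card M := by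
    have hburn := MulAction.sum_card_fixedBy_eq_card_orbits_mul_card_group M L
    have : Subsingleton (Quotient (orbitRel M L)) :=
      ⟨fun a b => Quotient.inductionOn₂ a b fun x y => Quotient.sound (exists_smul_eq M y x)⟩
    have h1 : Fintype.card (Quotient (orbitRel M L)) = 1 :=
      Fintype.card_eq_one_iff.mpr ⟨⟦y₀⟧, fun x => Subsingleton.elim _ _⟩
    rw [h1, one_mul] at hburn
    simpa [hf, Nat.card_eq_fintype_card, ← Nat.card_coe_set_eq] using hburn
  have hsplit : ∀ g : M, f g + (if g ≠ 1 ∧ f g = 1 then 1 else 0) + 2 * (if f g = 0 then 1 else 0) +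
      (if g = 1 then 2 else 0) = 2 + (if g = 1 then Nat.card L else 0) := by
    intro g
    by_cases h1 : g = 1
    · subst h1
      have hfu : f 1 = Nat.card L := by
        simp [hf, show fixedBy L (1 : M) = Set.univ from Set.eq_univ_of_forall fun y => one_smul M y]
      have hne : f 1 ≠ 0 := by
        rw [hfu]; have : Nonempty L := ⟨y₀⟩; exact Nat.card_pos.ne'
      rw [if_neg (by simp), if_neg hne, if_pos rfl, if_pos rfl, hfu]
      omega
    · have := hfix g h1
      rw [if_neg h1, if_neg h1]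
      rcases Nat.lt_or_ge (f g) 1 with h0 | h0
      · rw [if_neg (fun h => by omega), if_pos (by omega)]; omega
      rcases Nat.lt_or_ge (f g) 2 with h2 | h2
      · rw [if_pos ⟨h1, by omega⟩, if_neg (by omega)]; omega
      · rw [if_neg (fun h => by omega), if_neg (by omega)]
        have : f g ≤ 2 := hfix g h1
        omega
  have hsum := Finset.sum_congr rfl fun g (_ : g ∈ (Finset.univ : Finset M)) => hsplit g
  simp only [Finset.sum_add_distrib, ← Finset.mul_sum, ← Finset.sum_filter] at hsum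
  rw [hB, ← Finset.card_eq_sum_ones, ← Finset.card_eq_sum_ones, hN1] at hsum
  have hfree : (Finset.univ.filter fun g : M => f g = 0).card = (Free M L).ncard := by
    rw [← Set.ncard_coe_finset]
    congr 1
    ext g
    simp [hf, Free, Set.ncard_eq_zero (Set.toFinite _)]
  rw [hfree] at hsum
  simp only [Finset.sum_const, Finset.card_univ, smul_eq_mul, Finset.filter_eq', Finset.mem_univ,
    if_true, Finset.card_singleton, Finset.sum_singleton] at hsum
  have hone1 : ∀ [DecidablePred fun a : M => a = 1], (Finset.univ.filter fun a : M => a = 1).card = 1 := fun {_} =>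
    Finset.card_eq_one.mpr ⟨1, by ext; simp⟩
  rw [hone1] at hsum
  have hz : 1 ≤ z := by omega
  obtain ⟨z', rfl⟩ : ∃ z', z = z' + 1 := ⟨z - 1, by omega⟩
  rw [Nat.add_sub_cancel, ← Nat.card_eq_fintype_card, hcard] at hsum
  rw [mul_add, mul_one]
  linarith

/-- A system of small commutative subgroups through the fixed-point-free elements. -/
structure Tori (M L : Type*) [Group M] [MulAction M L] where
  K : M → Subgroup M
  mem : ∀ x ∈ Free M L, x ∈ K x
  free : ∀ x ∈ Free M L, ∀ y ∈ K x, y ≠ 1 → y ∈ Free M L ∧ K y = K x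
  conj : ∀ x ∈ Free M L, ∀ a : M, K (a * x * a⁻¹) = (K x).map (MulAut.conj a).toMonoidHom
  normal : ∀ x ∈ Free M L, Nat.card {a : M // K (a * x * a⁻¹) = K x} ≤ 2 * Nat.card (K x)

/-- A set of fixed-point-free elements that is a union of classes of such subgroups. -/
def Closed (𝒯 : Tori M L) (T : Set M) : Prop :=
  T ⊆ Free M L ∧ (∀ x ∈ T, ∀ y ∈ 𝒯.K x, y ≠ 1 → y ∈ T) ∧ ∀ x ∈ T, ∀ a : M, a * x * a⁻¹ ∈ T

lemma free_closed (𝒯 : Tori M L) : Closed 𝒯 (Free M L) := by
  refine ⟨le_rfl, fun x hx y hy h1 => (𝒯.free x hx y hy h1).1, fun x hx a => ?_⟩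
  refine Set.eq_empty_of_forall_notMem fun w hw => ?_
  obtain ⟨v, rfl⟩ := (MulAction.toPerm a).surjective w
  rw [MulAction.toPerm_apply, fixedBy_conj_eq] at hw
  rw [show fixedBy L x = ∅ from hx] at hw
  exact hw

lemma one_notMem_free [Nonempty L] : (1 : M) ∉ Free M L := fun h => by
  obtain ⟨v⟩ := ‹Nonempty L›
  have : v ∈ fixedBy L (1 : M) := one_smul M v
  rw [show fixedBy L (1 : M) = ∅ from h] at this
  exact this

/-- One class. -/
theorem class_step [Nonempty L] (𝒯 : Tori M L) {T : Set M} (hT : Closed 𝒯 T) (hne : T.Nonempty) :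
    ∃ (T' : Set M) (e s f : ℕ), Closed 𝒯 T' ∧ T.ncard = e + T'.ncard ∧ 2 ≤ s ∧ s ∣ Nat.card L ∧
      (f = 1 ∨ f = 2) ∧ e * (f * s) + Nat.card M = Nat.card M * s := by
  classical
  obtain ⟨x, hx⟩ := hne
  have hxF := hT.1 hx
  set κ : M → Subgroup M := fun m => 𝒯.K (m * x * m⁻¹) with hκ
  have hxm : ∀ m, m * x * m⁻¹ ∈ Free M L := fun m => (free_closed 𝒯).2.2 x hxF m
  have heq : ∀ a m, κ (a * m) = (κ m).map (MulAut.conj a).toMonoidHom := fun a m => by
    rw [hκ]; simp only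
    rw [← 𝒯.conj _ (hxm m) a]
    congr 1; group
  have hκ1 : κ 1 = 𝒯.K x := by simp [hκ]
  have hinj : ∀ (a : M) (A B : Subgroup M), A.map (MulAut.conj a).toMonoidHom = B.map (MulAut.conj a).toMonoidHom → A = B :=
    fun a A B h => Subgroup.map_injective (MulAut.conj a).injective h
  let N : Subgroup M :=
    { carrier := {m | κ m = κ 1}
      one_mem' := rfl
      mul_mem' := fun {a b} (ha : κ a = κ 1) (hb : κ b = κ 1) => by
        show κ (a * b) = κ 1
        rw [heq, hb, ← heq, mul_one, ha]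
      inv_mem' := fun {a} (ha : κ a = κ 1) => by
        show κ a⁻¹ = κ 1
        refine hinj a _ _ ?_
        rw [← heq, ← heq, mul_inv_cancel, mul_one, ha] }
  set s := Nat.card (𝒯.K x) with hs
  have hKN : 𝒯.K x ≤ N := fun y hy => by
    show κ y = κ 1
    conv_lhs => rw [← mul_one y, heq]
    rw [hκ1]
    ext w
    rw [Subgroup.mem_map]
    constructor
    · rintro ⟨u, hu, rfl⟩
      exact (𝒯.K x).mul_mem ((𝒯.K x).mul_mem hy hu) ((𝒯.K x).inv_mem hy)
    · intro hw
      exact ⟨y⁻¹ * w * y, (𝒯.K x).mul_mem ((𝒯.K x).mul_mem ((𝒯.K x).inv_mem hy) hw) hy, by simp; group⟩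
  have hs2 : 2 ≤ s := by
    have hx1 : x ≠ 1 := fun h => one_notMem_free (h ▸ hxF)
    have : Nontrivial (𝒯.K x) := ⟨⟨⟨x, 𝒯.mem x hxF⟩, 1, fun h => hx1 (congrArg Subtype.val h)⟩⟩
    exact Finite.one_lt_card
  obtain ⟨f, hf, hNf⟩ : ∃ f, (f = 1 ∨ f = 2) ∧ Nat.card N = f * s := by
    obtain ⟨f, hf⟩ := Subgroup.card_dvd_of_le hKN
    rw [← hs] at hf
    have hle : Nat.card N ≤ 2 * s := by
      refine le_trans (le_of_eq ?_) (𝒯.normal x hxF)
      exact Nat.card_congr (Equiv.subtypeEquivRight fun m => by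
        show κ m = κ 1 ↔ _
        rw [hκ1, hκ])
    have hp : 0 < Nat.card N := Nat.card_pos
    refine ⟨f, ?_, by rw [hf, mul_comm]⟩
    rcases f with _ | _ | _ | f
    · omega
    · left; rfl
    · right; rfl
    · rw [hf] at hle
      have h3 : s * 3 ≤ s * (f + 1 + 1 + 1) := Nat.mul_le_mul le_rfl (by omega)
      omega
  set U : Set M := {y | y ≠ 1 ∧ ∃ m, y ∈ κ m} with hU
  have hUT : U ⊆ T := by
    rintro y ⟨hy1, m, hm⟩
    exact hT.2.1 _ (hT.2.2 x hx m) y hm hy1
  have hdis : ∀ {y m}, y ≠ 1 → y ∈ κ m → 𝒯.K y = κ m := fun {y m} h1 h2 => (𝒯.free _ (hxm m) y h2 h1).2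
  have hT' : Closed 𝒯 (T \ U) := by
    refine ⟨fun y hy => hT.1 hy.1, fun y hy w hw h1 => ⟨hT.2.1 y hy.1 w hw h1, ?_⟩, fun y hy a => ⟨hT.2.2 y hy.1 a, ?_⟩⟩
    · rintro ⟨-, m, hm⟩
      have e1 := hdis h1 hm
      rw [(𝒯.free y (hT.1 hy.1) w hw h1).2] at e1
      refine hy.2 ⟨?_, m, e1 ▸ 𝒯.mem y (hT.1 hy.1)⟩
      exact fun h => one_notMem_free (h ▸ hT.1 hy.1)
    · rintro ⟨h1, m, hm⟩
      refine hy.2 ⟨fun e => h1 (by rw [e, mul_one, mul_inv_cancel]), a⁻¹ * m, ?_⟩
      rw [heq]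
      exact ⟨_, hm, by simp; group⟩
  -- the size of the class
  let e : (Set.range κ) × {y : M // y ∈ 𝒯.K x ∧ y ≠ 1} → U := fun p =>
    ⟨p.1.2.choose * p.2.1 * p.1.2.choose⁻¹,
      fun h => p.2.2.2 (conj_eq_one_iff.mp h), p.1.2.choose, by
        rw [← mul_one p.1.2.choose, heq, hκ1, mul_one]
        exact ⟨p.2.1, p.2.2.1, rfl⟩⟩
  have he : Function.Bijective e := by
    constructor
    · rintro ⟨⟨A, hA⟩, ⟨y, hy⟩⟩ ⟨⟨B, hB⟩, ⟨w, hw⟩⟩ h
      have hval := congrArg Subtype.val h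
      simp only [e] at hval
      have hAm : ∀ (A : Subgroup M) (hA : A ∈ Set.range κ) (y : M), y ∈ 𝒯.K x → y ≠ 1 →
          𝒯.K (hA.choose * y * hA.choose⁻¹) = A := fun A hA y hy h1 => by
        refine (hdis (fun h => h1 (conj_eq_one_iff.mp h)) ?_).trans hA.choose_spec
        rw [← mul_one hA.choose, heq, hκ1, mul_one]
        exact ⟨y, hy, rfl⟩
      have hAB : A = B := (hAm A hA y hy.1 hy.2).symm.trans ((congrArg 𝒯.K hval).trans (hAm B hB w hw.1 hw.2))
      subst hAB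
      have : y = w := by simpa using hval
      subst this
      rfl
    · rintro ⟨y, hy1, m, hm⟩
      have hA : κ m ∈ Set.range κ := ⟨m, rfl⟩
      have hc := hA.choose_spec
      rw [← mul_one hA.choose, heq, hκ1] at hc
      obtain ⟨u, hu, hu'⟩ := hc.symm ▸ hm
      refine ⟨⟨⟨κ m, hA⟩, ⟨u, hu, fun h => hy1 (by rw [← hu', h, map_one])⟩⟩, Subtype.ext ?_⟩
      simpa [e] using hu'
  have hcU : U.ncard = (Set.range κ).ncard * (s - 1) := by
    rw [← Nat.card_coe_set_eq, ← Nat.card_congr (Equiv.ofBijective e he), Nat.card_prod, Nat.card_coe_set_eq]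
    congr 1
    rw [hs, show {y : M // y ∈ 𝒯.K x ∧ y ≠ 1} = ↥((𝒯.K x : Set M) \ {1}) from rfl, Nat.card_coe_set_eq,
      Set.ncard_sdiff_singleton_of_mem (𝒯.K x).one_mem, ← Nat.card_coe_set_eq]
    rfl
  have hrange : (Set.range κ).ncard * Nat.card N = Nat.card M := by
    rw [mul_comm, ← N.card_mul_index, Subgroup.index, ← Nat.card_coe_set_eq]
    congr 1
    refine (Nat.card_congr (Equiv.ofBijective
      (Quotient.lift (fun m => (⟨κ m, m, rfl⟩ : Set.range κ)) ?_) ⟨?_, ?_⟩)).symm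
    · intro a b h
      have hm : a⁻¹ * b ∈ N := QuotientGroup.leftRel_apply.mp h
      have hm' : κ (a⁻¹ * b) = κ 1 := hm
      refine Subtype.ext ?_
      show κ a = κ b
      rw [← mul_inv_cancel_left a b, heq a (a⁻¹ * b), hm', ← heq, mul_one]
    · rintro ⟨a⟩ ⟨b⟩ h
      refine Quotient.sound (QuotientGroup.leftRel_apply.mpr ?_)
      have h' : κ a = κ b := congrArg Subtype.val h
      show κ (a⁻¹ * b) = κ 1
      rw [heq, ← h', ← heq, inv_mul_cancel]
    · rintro ⟨_, m, rfl⟩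
      exact ⟨Quotient.mk'' m, rfl⟩
  have hsn : s ∣ Nat.card L := by
    have hfree : ∀ v : L, stabilizer (𝒯.K x) v = ⊥ := fun v => by
      rw [eq_bot_iff]
      intro g hg
      rw [Subgroup.mem_bot]
      by_contra hne
      have h1 : g.1 ≠ 1 := fun h => hne (Subtype.ext h)
      have hF := (𝒯.free x hxF g.1 g.2 h1).1
      have : v ∈ fixedBy L g.1 := hg
      rw [show fixedBy L g.1 = ∅ from hF] at this
      exact this
    rw [Nat.card_congr (MulAction.selfEquivOrbitsQuotientProd hfree), Nat.card_prod, hs]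
    exact dvd_mul_left _ _
  refine ⟨T \ U, U.ncard, s, f, hT', ?_, hs2, hsn, hf, ?_⟩
  · rw [add_comm, Set.ncard_sdiff_add_ncard_of_subset hUT]
  · rw [hcU, ← hrange, hNf]
    obtain ⟨t, ht⟩ : ∃ t, s = t + 1 := ⟨s - 1, by omega⟩
    rw [ht, Nat.add_sub_cancel]
    ring

/-- Bounds on a class. -/
lemma contrib {e f s g : ℕ} (hs : 2 ≤ s) (hf : f = 1 ∨ f = 2) (h : e * (f * s) + g = g * s) :
    g ≤ 4 * e ∧ (f = 1 → (s = 2 → 2 * e = g) ∧ (3 ≤ s → 2 * g ≤ 3 * e) ∧ g ≤ 2 * e) ∧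
      (f = 2 → 2 * e ≤ g ∧ (s = 2 → 4 * e = g) ∧ (s = 3 → 3 * e = g) ∧ (4 ≤ s → 3 * g ≤ 8 * e) ∧
        (1 ≤ g → 2 * e < g)) := by
  rcases hf with rfl | rfl
  · refine ⟨by nlinarith, fun _ => ⟨?_, fun h3 => by nlinarith, by nlinarith⟩, fun h2 => by omega⟩
    rintro rfl; linarith
  · refine ⟨by nlinarith, fun h1 => by omega, fun _ => ⟨by nlinarith, ?_, ?_, fun h4 => by nlinarith, fun hg => by nlinarith⟩⟩
    · rintro rfl; linarith
    · rintro rfl; linarith

variable [IsPretransitive M L]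

set_option maxHeartbeats 800000 in
/-- The count for proper groups of translations. -/
theorem line_big (𝒯 : Tori M L) (y₀ : L) {q z d : ℕ} (hn : Nat.card L = q + 1) (hzq : z ∣ q)
    (hz2 : 2 ≤ z) (hlt : z < q) (hd1 : 1 ≤ d) (hd : d + 1 ≤ z)
    (hfix : ∀ g : M, g ≠ 1 → (fixedBy L g).ncard ≤ 2)
    (hst : Nat.card (stabilizer M y₀) = z * d)
    (hone : {g : M | g ≠ 1 ∧ fixedBy L g = {y₀}}.ncard + 1 = z) :
    z = 2 ∨ (z = 3 ∧ q = 9) := by
  have : Nonempty L := ⟨y₀⟩
  obtain ⟨hg, hΦ⟩ := card_free y₀ hfix hst hone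
  set n := Nat.card L with hn'
  set g := Nat.card M with hg'
  rw [← hg] at hΦ
  have hnz : 2 * n ≤ n * z := by nlinarith
  have hne : (Free M L).Nonempty := by
    rw [← Set.ncard_pos (Set.toFinite _)]
    have h2 : n * z + 2 < n * (z * d) + 2 * n := by nlinarith
    omega
  obtain ⟨T', e, s, f, hT', hcard, hs, hsn, hf, he⟩ := class_step 𝒯 (free_closed 𝒯) hne
  obtain ⟨h4, h1, h2⟩ := contrib hs hf he
  rcases Set.eq_empty_or_nonempty T' with hT0 | hT0
  swap
  · obtain ⟨T'', e', s', f', -, hcard', hs', -, hf', he'⟩ := class_step 𝒯 hT' hT0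
    obtain ⟨h4', -, -⟩ := contrib hs' hf' he'
    omega
  rw [hT0, Set.ncard_empty, add_zero] at hcard
  rcases hf with rfl | rfl
  · have := (h1 rfl).2.2
    omega
  obtain ⟨u, hu⟩ := hsn
  have hkey : z * d * u + 2 * (s * u) = s * u * z + 2 := by
    refine Nat.eq_of_mul_eq_mul_left (show 0 < s by omega) ?_
    have hu' : n = s * u := hu
    have he' : e * (2 * s) + g = g * s := he
    rw [hcard] at hΦ
    rw [hu'] at hΦ hg
    rw [hg] at hΦ he'
    zify at hΦ he' ⊢
    linear_combination he' - (s : ℤ) * hΦ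
  obtain ⟨r, rfl⟩ := hzq
  have hu2 : u ∣ 2 := ⟨z * d + 2 * s - s * z, by
    have : u * (z * d + 2 * s) = u * (s * z) + 2 := by linarith
    rw [Nat.mul_sub, this, Nat.add_sub_cancel_left]⟩
  have hr : 2 ≤ r := by
    by_contra hr
    interval_cases r <;> omega
  have hzd : z * d + z ≤ z * z := by nlinarith
  rcases (Nat.dvd_prime Nat.prime_two).mp hu2 with rfl | rfl
  · left
    by_contra h
    have h3 : 3 ≤ z := by omega
    have e1 : z * 2 ≤ z * r := Nat.mul_le_mul_left _ hr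
    have hs1 : s = z * r + 1 := by omega
    nlinarith [Nat.mul_le_mul_right (z - 2) (show 2 * z + 1 ≤ s by omega)]
  · have hodd : ¬ 2 ∣ z ∧ ¬ 2 ∣ r := by
      constructor <;> intro h
      · have := Dvd.dvd.mul_right h r; omega
      · have := Dvd.dvd.mul_left h z; omega
    right
    have hr3 : 3 ≤ r := by omega
    have h3 : 3 ≤ z := by omega
    have e1 : z * 3 ≤ z * r := Nat.mul_le_mul_left _ hr3
    have hz3 : z = 3 := by
      by_contra h
      nlinarith [Nat.mul_le_mul_right (z - 2) (show 3 * z + 1 ≤ 2 * s by omega),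
        Nat.sub_add_cancel hz2, Nat.mul_le_mul_left z (show 4 ≤ z by omega)]
    subst hz3
    exact ⟨rfl, by omega⟩

/-- The count without translations. -/
theorem line_one (𝒯 : Tori M L) (y₀ : L) {q d : ℕ} (hn : Nat.card L = q + 1) (hq : 3 ≤ q) (hd1 : 1 ≤ d)
    (hfix : ∀ g : M, g ≠ 1 → (fixedBy L g).ncard ≤ 2)
    (hst : Nat.card (stabilizer M y₀) = d)
    (hone : {g : M | g ≠ 1 ∧ fixedBy L g = {y₀}}.ncard = 0) :
    d ≤ 5 ∧ ¬ (q = 4 ∧ d = 3) ∧ ¬ (q = 17 ∧ d = 4) := by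
  have : Nonempty L := ⟨y₀⟩
  obtain ⟨hg, hΦ⟩ := card_free (z := 1) (d := d) y₀ hfix (by rw [hst, one_mul]) (by rw [hone])
  rw [one_mul, hn] at hg hΦ
  rw [mul_one] at hΦ
  rw [← hg] at hΦ
  set g := Nat.card M with hg'
  set Φ := (Free M L).ncard with hΦ'
  have hne : (Free M L).Nonempty := by
    rw [← Set.ncard_pos (Set.toFinite _)]
    omega
  obtain ⟨T₁, e₁, s₁, f₁, hT₁, hc₁, hs₁, hd₁, hf₁, he₁⟩ := class_step 𝒯 (free_closed 𝒯) hne
  have hX : 2 * Φ + 2 = g + (q + 1) := by omega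
  rw [hn] at hd₁
  have B1 := contrib hs₁ hf₁ he₁
  have cls18 : ∀ {e s f : ℕ}, q = 17 → d = 4 → s ∣ q + 1 → 2 ≤ s → f = 1 ∨ f = 2 → e * (f * s) + g = g * s →
      e = 18 ∨ e = 24 ∨ e = 30 ∨ e = 32 ∨ e = 34 ∨ e = 36 ∨ e = 48 ∨ e = 60 ∨ e = 64 ∨ e = 68 := by
    intro e s f hq' hd' hdiv hs hf he
    subst hq' hd'
    have := Nat.le_of_dvd (by norm_num) hdiv
    rw [hg] at he
    rcases hf with rfl | rfl <;> interval_cases s <;> omega
  have cls5 : ∀ {e s f : ℕ}, q = 4 → d = 3 → s ∣ q + 1 → 2 ≤ s → f = 1 ∨ f = 2 → e * (f * s) + g = g * s →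
      e = 6 ∨ e = 12 := by
    intro e s f hq' hd' hdiv hs hf he
    subst hq' hd'
    have := Nat.le_of_dvd (by norm_num) hdiv
    rw [hg] at he
    rcases hf with rfl | rfl <;> interval_cases s <;> omega
  have hbig : 6 ≤ d → 6 * (2 * Φ) + 12 ≤ 7 * g := fun h => by
    have : 6 * (q + 1) ≤ g := by rw [hg, mul_comm]; exact Nat.mul_le_mul_left _ h
    omega
  rcases Set.eq_empty_or_nonempty T₁ with h0 | h0
  · rw [h0, Set.ncard_empty, add_zero] at hc₁
    refine ⟨?_, fun h => ?_, fun h => ?_⟩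
    · by_contra h
      have := hbig (by omega)
      obtain ⟨b, b1, b2⟩ := B1
      rcases hf₁ with rfl | rfl
      · obtain ⟨c1, c2, c3⟩ := b1 rfl
        omega
      · obtain ⟨c1, c2, c3, c4, c5⟩ := b2 rfl
        omega
    · have := cls5 h.1 h.2 hd₁ hs₁ hf₁ he₁
      obtain ⟨rfl, rfl⟩ := h
      omega
    · have := cls18 h.1 h.2 hd₁ hs₁ hf₁ he₁
      obtain ⟨rfl, rfl⟩ := h
      omega
  obtain ⟨T₂, e₂, s₂, f₂, hT₂, hc₂, hs₂, hd₂, hf₂, he₂⟩ := class_step 𝒯 hT₁ h0
  rw [hn] at hd₂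
  have B2 := contrib hs₂ hf₂ he₂
  rcases Set.eq_empty_or_nonempty T₂ with h0 | h0
  · rw [h0, Set.ncard_empty, add_zero] at hc₂
    refine ⟨?_, fun h => ?_, fun h => ?_⟩
    · by_contra h
      have := hbig (by omega)
      obtain ⟨b, b1, b2⟩ := B1
      obtain ⟨b', b1', b2'⟩ := B2
      rcases hf₁ with rfl | rfl <;> rcases hf₂ with rfl | rfl
      · obtain ⟨c1, c2, c3⟩ := b1 rfl
        omega
      · obtain ⟨c1, c2, c3⟩ := b1 rfl
        omega
      · obtain ⟨c1, c2, c3⟩ := b1' rfl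
        omega
      · obtain ⟨c1, c2, c3, c4, c5⟩ := b2 rfl
        obtain ⟨c1', c2', c3', c4', c5'⟩ := b2' rfl
        omega
    · have := cls5 h.1 h.2 hd₁ hs₁ hf₁ he₁
      have := cls5 h.1 h.2 hd₂ hs₂ hf₂ he₂
      obtain ⟨rfl, rfl⟩ := h
      omega
    · have := cls18 h.1 h.2 hd₁ hs₁ hf₁ he₁
      have := cls18 h.1 h.2 hd₂ hs₂ hf₂ he₂
      obtain ⟨rfl, rfl⟩ := h
      omega
  obtain ⟨T₃, e₃, s₃, f₃, hT₃, hc₃, hs₃, hd₃, hf₃, he₃⟩ := class_step 𝒯 hT₂ h0
  have B3 := contrib hs₃ hf₃ he₃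
  refine ⟨?_, fun h => ?_, fun h => ?_⟩
  · by_contra h
    have := hbig (by omega)
    omega
  · obtain ⟨rfl, rfl⟩ := h
    omega
  · obtain ⟨rfl, rfl⟩ := h
    omega

end Cfsg.Agent.H2.MinU.S3
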