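import Cfsg.Agent.H2.MinU.S3.Plane
import Cfsg.Agent.H2.MinU.S3.Count

/-!
The count on the line through the two base points.
-/

set_option autoImplicit false

namespace Cfsg.Agent.H2.MinU.S3

open Matrix MulAction Cfsg.Agent.H2.MinU

variable {F : Type*} [Field F] [Fintype F] {q : ℕ} {D : Dat F q}
  {H : Subgroup (Cfsg.SU (2 + 1) F q)}

variable (D H) in
/-- The group induced on the line. -/
noncomputable abbrev Mbar : Subgroup (Equiv.Perm (L D)) := (perm D H).range

variable (D H) in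
/-- The restriction to the line. -/
noncomputable abbrev pr : Mw H →* Mbar D H := (perm D H).rangeRestrict

lemma pr_surj : Function.Surjective (pr D H) := (perm D H).rangeRestrict_surjective

lemma pr_smul (g : Mw H) (x : L D) : pr D H g • x = g • x := rfl

lemma pr_eq_one {g : Mw H} : pr D H g = 1 ↔ perm D H g = 1 :=
  ⟨fun h => congrArg Subtype.val h, fun h => Subtype.ext h⟩

lemma pr_eq {g h : Mw H} (h' : ∀ x : L D, g • x = h • x) : pr D H g = pr D H h :=
  Subtype.ext (Equiv.ext h')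

lemma free_iff {g : Mw H} : pr D H g ∈ Free (Mbar D H) (L D) ↔ NF D H g := by
  show fixedBy (L D) (pr D H g) = ∅ ↔ _
  rw [Set.eq_empty_iff_forall_notMem]
  exact Iff.rfl

lemma cw_congr {g g' : Mw H} (h : pr D H g = pr D H g') : Cw D H g = Cw D H g' := by
  obtain ⟨l, hl⟩ : Sc D (g⁻¹ * g').1 := (perm_eq_one D H).mp (pr_eq_one.mp (by
    rw [map_mul, map_inv, h, inv_mul_cancel]))
  have hl0 : l ≠ 0 := fun e => act_ne_zero (g⁻¹ * g').1 D.p_ne (by rw [hl _ (inPl_p D), e, zero_smul])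
  have e : ∀ v, InPl D v → act g'.1 v = l • act g.1 v := fun v hv => by
    have h2 : g'.1 = g.1 * (g⁻¹ * g').1 := by
      rw [← Subgroup.coe_mul, mul_inv_cancel_left]
    rw [h2, act_mul, hl v hv, act_smul]
  ext k
  rw [mem_Cw, mem_Cw]
  constructor
  · intro hk v hv
    rw [e v hv, e _ (inPl_act D k.2.2 hv), act_smul, hk v hv]
  · intro hk v hv
    have := hk v hv
    rw [e v hv, e _ (inPl_act D k.2.2 hv), act_smul] at this
    exact smul_right_injective _ hl0 this

lemma cw_conj (a g : Mw H) :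
    Cw D H (a * g * a⁻¹) = (Cw D H g).map (MulAut.conj a).toMonoidHom := by
  have main : ∀ (a g k : Mw H), k ∈ Cw D H g → a * k * a⁻¹ ∈ Cw D H (a * g * a⁻¹) := by
    intro a g k hk v hv
    have hm := hk _ (inPl_act D (Subgroup.inv_mem _ a.2.2) hv)
    show act (a.1 * k.1 * a.1⁻¹) (act (a.1 * g.1 * a.1⁻¹) v) =
      act (a.1 * g.1 * a.1⁻¹) (act (a.1 * k.1 * a.1⁻¹) v)
    simp only [act_mul, act_inv_act]
    rw [hm]
  ext k
  rw [Subgroup.mem_map]
  constructor
  · intro hk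
    refine ⟨a⁻¹ * k * a⁻¹⁻¹, ?_, by simp; group⟩
    have := main a⁻¹ _ _ hk
    rwa [show a⁻¹ * (a * g * a⁻¹) * a⁻¹⁻¹ = g by group] at this
  · rintro ⟨h, hh, rfl⟩
    exact main a g h hh

variable (D H) in
/-- The tori on the line. -/
noncomputable def tori : Tori (Mbar D H) (L D) where
  K x := (Cw D H (Function.surjInv pr_surj x)).map (pr D H)
  mem x _ := ⟨_, self_mem_Cw D H _, Function.surjInv_eq pr_surj x⟩
  free x hx y hy h1 := by
    obtain ⟨h, hh, rfl⟩ := hy
    have hg : NF D H (Function.surjInv pr_surj x) := free_iff.mp (by rwa [Function.surjInv_eq pr_surj x])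
    obtain ⟨h2, h3⟩ := cw_free hg hh fun e => h1 (pr_eq_one.mpr e)
    refine ⟨free_iff.mpr h2, ?_⟩
    rw [cw_congr (Function.surjInv_eq pr_surj (pr D H h)), h3]
  conj x _ a := by
    obtain ⟨b, rfl⟩ := pr_surj a
    rw [cw_congr (g := Function.surjInv pr_surj (pr D H b * x * (pr D H b)⁻¹))
      (g' := b * Function.surjInv pr_surj x * b⁻¹)
      (by rw [Function.surjInv_eq pr_surj, map_mul, map_mul, map_inv, Function.surjInv_eq pr_surj]),
      cw_conj, Subgroup.map_map, Subgroup.map_map]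
    congr 1
    ext k
    simp
  normal x hx := by
    classical
    obtain ⟨g, rfl⟩ := pr_surj x
    have hg : NF D H g := free_iff.mp hx
    have hC : Cw D H (Function.surjInv pr_surj (pr D H g)) = Cw D H g := cw_congr (Function.surjInv_eq pr_surj _)
    obtain ⟨R, T, hq, hdeg⟩ := quad hg
    set K : Subgroup (Mbar D H) := (Cw D H g).map (pr D H) with hK
    have step : ∀ m : Mw H,
        (Cw D H (Function.surjInv pr_surj (pr D H m * pr D H g * (pr D H m)⁻¹))).map (pr D H) = K →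
        pr D H m ∈ K ∨ ∀ v, InPl D v → act (m * g * m⁻¹).1 v = T • v - act g.1 v := by
      intro m hm
      rw [cw_congr (g' := m * g * m⁻¹) (by rw [Function.surjInv_eq pr_surj, map_mul, map_mul, map_inv])] at hm
      have hkK : pr D H (m * g * m⁻¹) ∈ K := hm ▸ ⟨_, self_mem_Cw D H _, rfl⟩
      obtain ⟨h, hh, e⟩ := hkK
      have hk : m * g * m⁻¹ ∈ Cw D H g := by
        have hker : h⁻¹ * (m * g * m⁻¹) ∈ Cw D H g := by
          obtain ⟨l, hl⟩ : Sc D (h⁻¹ * (m * g * m⁻¹)).1 := (perm_eq_one D H).mp (pr_eq_one.mp (by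
            rw [map_mul, map_inv, e, inv_mul_cancel]))
          intro v hv
          rw [hl _ (inPl_act D g.2.2 hv), hl v hv, act_smul]
        have := (Cw D H g).mul_mem hh hker
        rwa [mul_inv_cancel_left] at this
      have hquad : ∀ v, InPl D v → act (m * g * m⁻¹).1 (act (m * g * m⁻¹).1 v) =
          R • v + T • act (m * g * m⁻¹).1 v := by
        intro v hv
        show act (m.1 * g.1 * m.1⁻¹) (act (m.1 * g.1 * m.1⁻¹) v) = R • v + T • act (m.1 * g.1 * m.1⁻¹) v
        simp only [act_mul, act_inv_act]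
        rw [hq _ (inPl_act D (Subgroup.inv_mem _ m.2.2) hv), act_add, act_smul, act_smul, act_act_inv]
      have hne : perm D H (m * g * m⁻¹) ≠ 1 := by
        intro e1
        rw [map_mul, map_mul, map_inv, conj_eq_one_iff] at e1
        exact hg (y0 D) (DFunLike.congr_fun e1 (y0 D))
      rcases conj_cases hg hq hdeg hquad hk hne with h1 | h2
      · refine Or.inl ⟨m, fun v hv => ?_, rfl⟩
        have e2 := h1 _ (inPl_act D m.2.2 hv)
        change act (m.1 * g.1 * m.1⁻¹) (act m.1 v) = _ at e2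
        rw [act_mul, act_mul, act_inv_act] at e2
        exact e2
      · exact Or.inr h2
    show Nat.card {a : Mbar D H //
        (Cw D H (Function.surjInv pr_surj (a * pr D H g * a⁻¹))).map (pr D H) =
          (Cw D H (Function.surjInv pr_surj (pr D H g))).map (pr D H)} ≤
      2 * Nat.card ((Cw D H (Function.surjInv pr_surj (pr D H g))).map (pr D H))
    rw [hC]
    have : Finite (Mbar D H) := inferInstance
    set S : Set (Mbar D H) :=
      {a | (Cw D H (Function.surjInv pr_surj (a * pr D H g * a⁻¹))).map (pr D H) = K} with hS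
    show Nat.card S ≤ 2 * Nat.card K
    rw [Nat.card_coe_set_eq]
    by_cases hall : S ⊆ (K : Set (Mbar D H))
    · refine (Set.ncard_le_ncard hall).trans ?_
      rw [show (K : Set (Mbar D H)).ncard = Nat.card K from (Nat.card_coe_set_eq _).symm]
      omega
    obtain ⟨a₀, ha₀, ha₀K⟩ := Set.not_subset.mp hall
    obtain ⟨n, rfl⟩ := pr_surj a₀
    have hn := (step n ha₀).resolve_left ha₀K
    have hsub : S ⊆ (K : Set (Mbar D H)) ∪ (pr D H n * ·) '' (K : Set (Mbar D H)) := by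
      intro a ha
      obtain ⟨m, rfl⟩ := pr_surj a
      rcases step m ha with h | h
      · exact Or.inl h
      refine Or.inr ⟨pr D H (n⁻¹ * m), ⟨n⁻¹ * m, fun v hv => ?_, rfl⟩, by
        show pr D H n * _ = _
        rw [map_mul, map_inv, mul_inv_cancel_left]⟩
      have hmv := inPl_act D m.2.2 hv
      have e1 := (h _ hmv).trans (hn _ hmv).symm
      change act (m.1 * g.1 * m.1⁻¹) (act m.1 v) = act (n.1 * g.1 * n.1⁻¹) (act m.1 v) at e1
      rw [act_mul, act_mul, act_inv_act, act_mul, act_mul] at e1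
      show act (n.1⁻¹ * m.1) (act g.1 v) = act g.1 (act (n.1⁻¹ * m.1) v)
      rw [act_mul, act_mul, e1, act_inv_act]
    refine (Set.ncard_le_ncard hsub).trans ((Set.ncard_union_le _ _).trans ?_)
    rw [Set.ncard_image_of_injective _ (mul_right_injective _),
      show (K : Set (Mbar D H)).ncard = Nat.card K from (Nat.card_coe_set_eq _).symm]
    omega

/-- Non-trivial permutations of the line fix at most two points. -/
theorem fix_le_two (σ : Mbar D H) (h1 : σ ≠ 1) : (fixedBy (L D) σ).ncard ≤ 2 := by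
  classical
  obtain ⟨g, rfl⟩ := pr_surj σ
  by_contra hlt
  push Not at hlt
  obtain ⟨a, ha, b, hb, c, hc, hab, hac, hbc⟩ := (Set.two_lt_ncard (Set.toFinite _)).mp hlt
  exact h1 (pr_eq_one.mpr ((perm_eq_one D H).mpr (sc_of_three D H hab hac hbc ha hb hc)))

variable (D H) in
/-- The scalars of the stabiliser of the line and the base point. -/
noncomputable def Kw : Subgroup Fˣ := ((Mw H).subgroupOf (pst D 1)).map (χ D)

variable (D H) in
/-- Their norms. -/
noncomputable def Nw : Subgroup Fˣ := (Kw D H).map (powMonoidHom (q + 1))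

lemma fix_y0 {g : Mw H} : g • y0 D = y0 D ↔ g.1 ∈ pst D 1 :=
  Subtype.ext_iff.trans (fix_x0 D)

/-- The normal form on the line of an element fixing the base point. -/
theorem normal_form (g : Mw H) (hg : g.1 ∈ pst D 1) :
    ∃ a : F, a + a ^ q = 0 ∧
      (∀ b : skew D.hF, ∀ b' : skew D.hF, b'.1 = ((χ D ⟨g.1, hg⟩ ^ (q + 1) : Fˣ) : F) * (b.1 + a) →
        g • yS D b = yS D b') ∧
      (χ D ⟨g.1, hg⟩ ^ (q + 1) = 1 → a ∈ Zs D H) := by
  have hq := H3.two_le_q D.hF
  set c := χ D ⟨g.1, hg⟩ with hc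
  obtain ⟨l, hl, -, hlu⟩ := exists_lev3 D c.ne_zero
  have hlW : l.1 ∈ Wst (F := F) (q := q) := ⟨_, pow_ne_zero _ c.ne_zero, hlu⟩
  have hu : l.1⁻¹ * g.1 ∈ Qg D 1 := by
    have e : χ D ((⟨l.1, lev_le_pst D l.2⟩ : pst D 1)⁻¹ * ⟨g.1, hg⟩) = 1 := by
      rw [map_mul, map_inv, inv_mul_eq_one]
      refine Units.ext ?_
      rw [χ_val]
      exact hl
    exact (χ_ker D _).mp e
  obtain ⟨w, a, hok, he⟩ := hu
  obtain ⟨μ, hμ0, hμ⟩ := (Wst (F := F) (q := q)).mul_mem ((Wst (F := F) (q := q)).inv_mem hlW) g.2.2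
  rw [he, El, act_E D.hF (ok_of hok D), show Cfsg.hermForm (2 + 1) F q (u1 : Fin (2 + 1) → F) (D.p 1) = 0 from D.up_p _] at hμ
  have hw0 : w = 0 := by
    have h2 := congrArg (fun v => Cfsg.hermForm (2 + 1) F q v (D.p' 1)) hμ
    have h3 : Cfsg.hermForm (2 + 1) F q (u1 : Fin (2 + 1) → F) (D.p' 1) = 0 := D.up_p' _
    simp only [zero_smul, add_zero, mul_zero, hsub_l D.hF, hsmul_l D.hF, h3, D.p_p', mul_one,
      zero_sub, neg_eq_zero] at h2
    rw [u1, D.form_up, form1, one_mul, pow_eq_zero_iff (q_ne_zero D.hF)] at h2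
    funext i
    fin_cases i
    exact h2
  subst hw0
  have ha : a + a ^ q = 0 := by
    have := hok
    rwa [OkW, hzero_l D.hF, add_zero] at this
  have hgl : g.1 = l.1 * El D (0 : Fin 1 → F) a := by rw [← he, mul_inv_cancel_left]
  obtain ⟨c', -, hp'⟩ := l.2.2
  have hpl : act l.1 (D.p 1) = (c : F) • D.p 1 := by rw [act_p l, hl]
  have hcc : (c : F) ^ q * c' = 1 := by
    have h := form_act l.1 (D.p' 1) (D.p 1)
    rw [hp', hpl, hsmul_l D.hF, hsmul_r D.hF, D.p'_p] at h
    linear_combination h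
  refine ⟨a, ha, fun b b' hb => ?_, fun h1 => ?_⟩
  · obtain ⟨k, hk, e⟩ := vec_yS D b
    obtain ⟨k', hk', e'⟩ := vec_yS D b'
    obtain ⟨s, hs, es⟩ := vec_smul D g.1 (yS D b).1
    refine Subtype.ext (vec_inj D (c := s * k * c' / k') ?_)
    rw [smul_L_val, es, e, act_smul, hgl, act_mul, El, map_zero, act_trans D.hF D.p_iso ha, hadd_l D.hF,
      hsmul_l D.hF, D.p_iso, D.p'_p, mul_zero, zero_add, mul_one, act_add, act_add, act_smul, act_smul,
      hpl, hp', e', smul_smul _ k', div_mul_cancel₀ _ hk', hb]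
    push_cast
    match_scalars
    · linear_combination (-(s * k * (b.1 + a) * (c : F))) * hcc
    · ring
  · refine (mem_Zs D H).mpr ⟨ha, ?_⟩
    have hN : (c : F) * (c : F) ^ q = 1 := by
      rw [← pow_succ', ← Units.val_pow_eq_pow_val, h1, Units.val_one]
    have hcomm : Commute l.1 (El D (0 : Fin 1 → F) a) := by
      have h := El_conj l (w := (0 : Fin 1 → F)) hok
      rw [smul_zero, hl, hN, one_mul] at h
      exact mul_inv_eq_iff_eq_mul.mp h
    have hlq : l.1 ^ (q + 1) = 1 := by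
      have hpow : ∀ (v : Fin (2 + 1) → F) (r : F), act l.1 v = r • v → ∀ n, act (l.1 ^ n) v = r ^ n • v := by
        intro v r hr n
        induction n with
        | zero => rw [pow_zero, act_one, pow_zero, one_smul]
        | succ n ih => rw [pow_succ, act_mul, hr, act_smul, ih, smul_smul, ← pow_succ']
      have h1c : (c : F) ^ (q + 1) = 1 := by rw [← Units.val_pow_eq_pow_val, h1, Units.val_one]
      have h1c' : c' ^ (q + 1) = 1 := by
        have := congrArg (· ^ (q + 1)) hcc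
        simp only [mul_pow, one_pow, ← pow_mul] at this
        rwa [mul_comm q, pow_mul, h1c, one_pow, one_mul] at this
      refine ext_act fun v => ?_
      rw [act_one]
      conv_rhs => rw [decomp3 D v]
      conv_lhs => rw [decomp3 D v]
      rw [act_add, act_add, act_smul, act_smul, act_smul, hpow _ _ hpl, hpow _ _ hp', hpow _ _ hlu, h1c, h1c',
        ← pow_mul, mul_comm (q - 1), pow_mul, h1c, one_pow, one_smul, one_smul, one_smul]
    have hEl : ∀ n : ℕ, El D (0 : Fin 1 → F) a ^ n = El D (0 : Fin 1 → F) ((n : F) * a) := by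
      intro n
      induction n with
      | zero => rw [pow_zero, Nat.cast_zero, zero_mul, El_zero]
      | succ n ih =>
        rw [pow_succ, ih, El_mul (okW_zero D.hF ?_) hok, add_zero, hzero_r D.hF, sub_zero]
        · push_cast; rw [add_mul, one_mul]
        · rw [mul_pow, show ((n : F)) ^ q = (n : F) from ?_]
          · linear_combination (n : F) * ha
          · obtain ⟨p, k, hp, hcp, -, hpq⟩ := H3.exists_q_eq_pow D.hF
            haveI := Fact.mk hp
            rw [hpq, ← iterateFrobenius_def p k, map_natCast]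
    have hq0 : ((q : F)) = 0 := by
      obtain ⟨p, k, hp, hcp, -, hpq⟩ := H3.exists_q_eq_pow D.hF
      rw [hpq, Nat.cast_pow, CharP.cast_eq_zero, zero_pow]
      rintro rfl
      rw [pow_zero] at hpq; omega
    have h2 := H.pow_mem g.2.1 (q + 1)
    rw [hgl, hcomm.mul_pow, hlq, one_mul, hEl] at h2
    push_cast at h2
    rwa [hq0, zero_add, one_mul] at h2

lemma trans_mem {a : F} (ha : a ∈ Zs D H) : El D (0 : Fin 1 → F) a ∈ Mw H := by
  obtain ⟨h1, h2⟩ := (mem_Zs D H).mp ha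
  refine ⟨h2, 1, one_ne_zero, ?_⟩
  rw [El, map_zero, act_trans D.hF D.p_iso h1,
    show Cfsg.hermForm (2 + 1) F q (u1 : Fin (2 + 1) → F) (D.p 1) = 0 from D.up_p _, mul_zero, zero_smul,
    add_zero, one_smul]

lemma trans_fix {a : F} (ha : a ∈ Zs D H) :
    (⟨_, trans_mem ha⟩ : Mw H) • y0 D = y0 D :=
  fix_y0.mpr (Qg_le_pst D (El_mem (okW_zero D.hF ((mem_Zs D H).mp ha).1)))

lemma trans_move {a : F} (ha : a ∈ Zs D H) (b b' : skew D.hF) (hb : b'.1 = b.1 + a) :
    (⟨_, trans_mem ha⟩ : Mw H) • yS D b = yS D b' := by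
  obtain ⟨k, hk, e⟩ := vec_yS D b
  obtain ⟨k', hk', e'⟩ := vec_yS D b'
  obtain ⟨s, hs, es⟩ := vec_smul D (El D (0 : Fin 1 → F) a) (yS D b).1
  refine Subtype.ext (vec_inj D (c := s * k / k') ?_)
  rw [smul_L_val, es, e, act_smul, El, map_zero, act_trans D.hF D.p_iso ((mem_Zs D H).mp ha).1,
    hadd_l D.hF, hsmul_l D.hF, D.p_iso, D.p'_p, mul_zero, zero_add, mul_one, e', smul_smul,
    smul_smul, div_mul_cancel₀ _ hk', hb]
  module

lemma norm_fixed (hF : Fintype.card F = q ^ 2) (c : Fˣ) :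
    (((c ^ (q + 1) : Fˣ) : F)) ^ q = ((c ^ (q + 1) : Fˣ) : F) := by
  push_cast
  rw [← pow_mul, mul_comm, pow_mul, pow_succ, qq hF, ← pow_succ']

lemma skew_mul {ν b : F} (hν : ν ^ q = ν) (hb : b + b ^ q = 0) : ν * b + (ν * b) ^ q = 0 := by
  rw [mul_pow, hν]; linear_combination ν * hb

/-- The stabiliser of the base point on the line. -/
theorem stab_data :
    Nat.card (stabilizer (Mbar D H) (y0 D)) = Nat.card (Zs D H) * Nat.card (Nw D H) ∧
      {σ : Mbar D H | σ ≠ 1 ∧ fixedBy (L D) σ = {y0 D}}.ncard + 1 = Nat.card (Zs D H) := by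
  classical
  have hsk : ∀ a ∈ Zs D H, a + a ^ q = 0 := fun a ha => ((mem_Zs D H).mp ha).1
  -- elements of each norm
  have hch : ∀ ν : Nw D H, ∃ g : Mw H, ∃ hg : g.1 ∈ pst D 1, χ D ⟨g.1, hg⟩ ^ (q + 1) = ν.1 := by
    rintro ⟨_, c, ⟨g, hg, rfl⟩, rfl⟩
    exact ⟨⟨g.1, hg⟩, g.2, rfl⟩
  choose G hG hGν using hch
  choose sh hsh hmv hZ using fun ν => normal_form (G ν) (hG ν)
  let e : Nw D H × Zs D H → stabilizer (Mbar D H) (y0 D) := fun p =>
    ⟨pr D H (G p.1 * ⟨_, trans_mem p.2.2⟩), by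
      rw [mem_stabilizer_iff, pr_smul, mul_smul, trans_fix p.2.2]
      exact fix_y0.mpr (hG _)⟩
  have hmove : ∀ (p : Nw D H × Zs D H) (b b' : skew D.hF),
      b'.1 = ((p.1.1 : Fˣ) : F) * (b.1 + p.2.1 + sh p.1) →
      (G p.1 * ⟨_, trans_mem p.2.2⟩ : Mw H) • yS D b = yS D b' := by
    intro p b b' hb
    rw [mul_smul, trans_move p.2.2 b ⟨b.1 + p.2.1, (skew D.hF).add_mem b.2 (hsk _ p.2.2)⟩ rfl]
    refine hmv _ _ b' ?_
    rw [hGν, hb]
  have hνq : ∀ ν : Nw D H, ((ν.1 : Fˣ) : F) ^ q = ((ν.1 : Fˣ) : F) := fun ν => by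
    rw [← hGν]; exact norm_fixed D.hF _
  have hinj : Function.Injective e := by
    intro p p' h
    have h' : ∀ x : L D, (G p.1 * ⟨_, trans_mem p.2.2⟩ : Mw H) • x = (G p'.1 * ⟨_, trans_mem p'.2.2⟩ : Mw H) • x :=
      fun x => DFunLike.congr_fun (congrArg (fun s : stabilizer (Mbar D H) (y0 D) => s.1.1) h) x
    have key : ∀ b : skew D.hF, ((p.1.1 : Fˣ) : F) * (b.1 + p.2.1 + sh p.1) =
        ((p'.1.1 : Fˣ) : F) * (b.1 + p'.2.1 + sh p'.1) := by
      intro b
      have hs : ∀ p : Nw D H × Zs D H, ((p.1.1 : Fˣ) : F) * (b.1 + p.2.1 + sh p.1) ∈ skew D.hF :=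
        fun p => skew_mul (hνq _) (((skew D.hF).add_mem ((skew D.hF).add_mem b.2 (hsk _ p.2.2)) (hsh _)))
      have h0 := h' (yS D b)
      rw [hmove p b ⟨_, hs p⟩ rfl, hmove p' b ⟨_, hs p'⟩ rfl] at h0
      exact congrArg Subtype.val (yS_inj D h0)
    obtain ⟨b, hb⟩ : ∃ b : skew D.hF, b.1 ≠ 0 := by
      by_contra hne
      push Not at hne
      have : Nat.card (skew D.hF) ≤ 1 :=
        (Finite.card_le_one_iff_subsingleton).mpr ⟨fun a b => Subtype.ext ((hne a).trans (hne b).symm)⟩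
      rw [card_skew] at this
      have := H3.two_le_q D.hF
      omega
    have k0 := key 0
    have k1 := key b
    rw [ZeroMemClass.coe_zero, zero_add, zero_add] at k0
    have hν : ((p.1.1 : Fˣ) : F) = ((p'.1.1 : Fˣ) : F) := mul_right_cancel₀ hb (by linear_combination k1 - k0)
    have hν' : p.1 = p'.1 := Subtype.ext (Units.ext hν)
    rw [hν'] at k0
    have hk := mul_left_cancel₀ (Units.ne_zero _) k0
    exact Prod.ext hν' (Subtype.ext (by linear_combination hk))
  have hsurj : Function.Surjective e := by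
    rintro ⟨σ, hσ⟩
    obtain ⟨g, rfl⟩ := pr_surj σ
    rw [mem_stabilizer_iff, pr_smul] at hσ
    have hg := fix_y0.mp hσ
    obtain ⟨s, hs, hgm, -⟩ := normal_form g hg
    let ν : Nw D H := ⟨χ D ⟨g.1, hg⟩ ^ (q + 1), ⟨_, ⟨⟨g.1, hg⟩, g.2, rfl⟩, rfl⟩⟩
    have hk : ((G ν)⁻¹ * g).1 ∈ pst D 1 := (pst D 1).mul_mem ((pst D 1).inv_mem (hG ν)) hg
    obtain ⟨a, ha, hkm, hka⟩ := normal_form ((G ν)⁻¹ * g) hk
    have hk1 : χ D ⟨((G ν)⁻¹ * g).1, hk⟩ ^ (q + 1) = 1 := by
      rw [show (⟨((G ν)⁻¹ * g).1, hk⟩ : pst D 1) = ⟨(G ν).1, hG ν⟩⁻¹ * ⟨g.1, hg⟩ from rfl,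
        map_mul, map_inv, mul_pow, inv_pow, hGν ν]
      exact inv_mul_cancel _
    have haZ := hka hk1
    refine ⟨(ν, ⟨a, haZ⟩), Subtype.ext (pr_eq fun x => ?_)⟩
    rcases L_cases D x with rfl | ⟨b, rfl⟩
    · rw [mul_smul, trans_fix haZ, fix_y0.mpr (hG _), hσ]
    · have e1 := hkm b ⟨b.1 + a, (skew D.hF).add_mem b.2 ha⟩ (by rw [hk1, Units.val_one, one_mul])
      rw [mul_smul, trans_move haZ b ⟨b.1 + a, (skew D.hF).add_mem b.2 ha⟩ rfl, ← e1, smul_smul,
        mul_inv_cancel_left]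
  refine ⟨?_, ?_⟩
  · rw [← Nat.card_eq_of_bijective e ⟨hinj, hsurj⟩, Nat.card_prod, mul_comm]
  · let f : Zs D H → Mbar D H := fun a => pr D H ⟨_, trans_mem a.2⟩
    have hf : Function.Injective f := by
      intro a a' h
      have h0 := DFunLike.congr_fun (congrArg Subtype.val h) (yS D 0)
      change (⟨_, trans_mem a.2⟩ : Mw H) • yS D 0 = (⟨_, trans_mem a'.2⟩ : Mw H) • yS D 0 at h0
      rw [trans_move a.2 0 ⟨a.1, hsk _ a.2⟩ (by simp), trans_move a'.2 0 ⟨a'.1, hsk _ a'.2⟩ (by simp)] at h0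
      have := congrArg (fun x : skew D.hF => x.1) (yS_inj D h0)
      exact Subtype.ext this
    have hset : {σ : Mbar D H | σ ≠ 1 ∧ fixedBy (L D) σ = {y0 D}} = f '' {a | a.1 ≠ 0} := by
      ext σ
      constructor
      · rintro ⟨h1, h2⟩
        have hσ : σ • y0 D = y0 D := (show y0 D ∈ fixedBy (L D) σ by rw [h2]; rfl)
        obtain ⟨⟨ν, a⟩, hp⟩ := hsurj ⟨σ, hσ⟩
        have hp' : pr D H (G ν * ⟨_, trans_mem a.2⟩) = σ := congrArg Subtype.val hp
        by_cases hν : ((ν.1 : Fˣ) : F) = 1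
        · have hsZ : sh ν ∈ Zs D H := hZ ν (by rw [hGν]; exact Units.ext hν)
          refine ⟨⟨a.1 + sh ν, add_mem a.2 hsZ⟩, fun h0 => ?_, ?_⟩
          · refine h1 ?_
            rw [← hp', pr_eq_one]
            refine Equiv.ext fun x => ?_
            show (G ν * ⟨_, trans_mem a.2⟩ : Mw H) • x = x
            rcases L_cases D x with rfl | ⟨b, rfl⟩
            · rw [mul_smul, trans_fix a.2, fix_y0.mpr (hG _)]
            · refine hmove (ν, a) b b ?_
              show b.1 = _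
              rw [hν, one_mul, add_assoc, show a.1 + sh ν = 0 from h0, add_zero]
          · rw [← hp']
            refine pr_eq fun x => ?_
            rcases L_cases D x with rfl | ⟨b, rfl⟩
            · rw [mul_smul, trans_fix a.2, fix_y0.mpr (hG _), trans_fix (add_mem a.2 hsZ)]
            · have hb' : b.1 + (a.1 + sh ν) ∈ skew D.hF :=
                (skew D.hF).add_mem b.2 ((skew D.hF).add_mem (hsk _ a.2) (hsh ν))
              rw [hmove (ν, a) b ⟨_, hb'⟩ (by rw [hν]; ring), trans_move (add_mem a.2 hsZ) b ⟨_, hb'⟩ rfl]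
        · exfalso
          obtain ⟨r, hr⟩ : ∃ r, r = ((ν.1 : Fˣ) : F) * (a.1 + sh ν) / (1 - ((ν.1 : Fˣ) : F)) := ⟨_, rfl⟩
          have hne : (1 : F) - ((ν.1 : Fˣ) : F) ≠ 0 := sub_ne_zero.mpr (Ne.symm hν)
          have hrs : r ∈ skew D.hF := by
            have hA : (a.1 + sh ν) ^ q = -(a.1 + sh ν) := by
              have hm : a.1 + sh ν + (a.1 + sh ν) ^ q = 0 := (skew D.hF).add_mem (hsk _ a.2) (hsh ν)
              linear_combination hm
            show r + r ^ q = 0
            rw [hr, div_pow, mul_pow, hνq, hA, qsub D.hF, one_pow, hνq]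
            ring
          have hfx : yS D ⟨r, hrs⟩ ∈ fixedBy (L D) σ := by
            rw [← hp']
            rw [mem_fixedBy, pr_smul]
            refine hmove (ν, a) _ _ ?_
            show r = ((ν.1 : Fˣ) : F) * (r + a.1 + sh ν)
            rw [hr]; field_simp; ring
          rw [h2] at hfx
          exact yS_ne D _ hfx
      · rintro ⟨a, ha, rfl⟩
        have hmem : y0 D ∈ fixedBy (L D) (f a) := trans_fix a.2
        have hmovea : ∀ b : skew D.hF, yS D b ∉ fixedBy (L D) (f a) := fun b hb => by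
          have e1 := trans_move a.2 b ⟨b.1 + a.1, (skew D.hF).add_mem b.2 (hsk _ a.2)⟩ rfl
          have hb' : (⟨_, trans_mem a.2⟩ : Mw H) • yS D b = yS D b := hb
          rw [hb'] at e1
          exact ha (left_eq_add.mp (congrArg Subtype.val (yS_inj D e1)))
        refine ⟨fun h => hmovea 0 (by rw [h]; exact one_smul _ _), ?_⟩
        refine Set.eq_singleton_iff_unique_mem.mpr ⟨hmem, fun x hx => ?_⟩
        rcases L_cases D x with rfl | ⟨b, rfl⟩
        · rfl
        · exact absurd hx (hmovea b)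
    rw [hset, Set.ncard_image_of_injective _ hf,
      show {a : Zs D H | a.1 ≠ 0} = Set.univ \ {0} from Set.ext fun a =>
        ⟨fun h => ⟨trivial, fun e => h (by rw [Set.mem_singleton_iff.mp e]; rfl)⟩, fun h e => h.2 (Subtype.ext e)⟩,
      Set.ncard_sdiff_singleton_add_one (Set.mem_univ _) (Set.toFinite _), Set.ncard_univ]

lemma pretrans (htr : ∀ y : L D, ∃ g : Mw H, g • y0 D = y) : IsPretransitive (Mbar D H) (L D) := by
  refine ⟨fun x y => ?_⟩
  obtain ⟨a, rfl⟩ := htr x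
  obtain ⟨b, rfl⟩ := htr y
  exact ⟨pr D H (b * a⁻¹), by rw [pr_smul, mul_smul, inv_smul_smul]⟩

/-- Proper transvection parts. -/
theorem line_result_big (htr : ∀ y : L D, ∃ g : Mw H, g • y0 D = y) (hz2 : 2 ≤ Nat.card (Zs D H))
    (hlt : Nat.card (Zs D H) < q) : Nat.card (Zs D H) = 2 ∨ (Nat.card (Zs D H) = 3 ∧ q = 9) := by
  have := pretrans htr
  have hdz : Nat.card (Nw D H) ∣ Nat.card (Zs D H) - 1 := by
    refine free_dvd _ _ ?_
    rintro _ ⟨c, ⟨g, hg, rfl⟩, rfl⟩ a ha
    exact Zs_stable D H ((mem_Ks D H).mpr ⟨g, hg.1, rfl⟩) ha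
  have hzq : Nat.card (Zs D H) ∣ q := by
    have := AddSubgroup.card_dvd_of_le (show Zs D H ≤ skew D.hF from zS_le _)
    rwa [card_skew] at this
  have hd : Nat.card (Nw D H) ≤ Nat.card (Zs D H) - 1 := Nat.le_of_dvd (by omega) hdz
  exact line_big (tori D H) (y0 D) (d := Nat.card (Nw D H)) (card_L D) hzq hz2 hlt Nat.card_pos (by omega)
    fix_le_two stab_data.1 stab_data.2

/-- No transvections. -/
theorem line_result_one (htr : ∀ y : L D, ∃ g : Mw H, g • y0 D = y) (hz : Nat.card (Zs D H) = 1) (hq : 3 ≤ q) :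
    Nat.card (Nw D H) ≤ 5 ∧ ¬ (q = 4 ∧ Nat.card (Nw D H) = 3) ∧ ¬ (q = 17 ∧ Nat.card (Nw D H) = 4) := by
  have := pretrans htr
  obtain ⟨h1, h2⟩ := stab_data (D := D) (H := H)
  rw [hz] at h1 h2
  exact line_one (tori D H) (y0 D) (card_L D) hq Nat.card_pos fix_le_two (by rw [h1, one_mul]) (by omega)

end Cfsg.Agent.H2.MinU.S3
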