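import Cfsg.Agent.H2.MinU.S3.Base

/-!
The hyperbolic line through the two base points, and the group it gets from its stabiliser.
-/

set_option autoImplicit false

namespace Cfsg.Agent.H2.MinU.S3

open Matrix MulAction Cfsg.Agent.H2.MinU

variable {F : Type*} [Field F] [Fintype F] {q : ℕ}

local notation "⟪" u ", " v "⟫" => Cfsg.hermForm _ F q u v

variable (D : Dat F q)

/-- The vectors of the plane. -/
def InPl (_D : Dat F q) (v : Fin (2 + 1) → F) : Prop := Cfsg.hermForm (2 + 1) F q v u1 = 0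

include D in
lemma coord_u1 (v : Fin (2 + 1) → F) : ⟪v, u1⟫ = down v 0 := by
  conv_lhs => rw [decomp3 D v]
  rw [hadd_l D.hF, hadd_l D.hF, hsmul_l D.hF, hsmul_l D.hF, hsmul_l D.hF, u1_u1 D]
  simp only [u1, D.p_up, D.p'_up]
  ring

lemma inPl_eq {v : Fin (2 + 1) → F} (h : InPl D v) :
    v = ⟪v, D.p' 1⟫ • D.p 1 + ⟪v, D.p 1⟫ • D.p' 1 := by
  have e := decomp3 D v
  rw [show down v 0 = 0 from (coord_u1 D v).symm.trans h, zero_smul, add_zero] at e
  exact e

lemma inPl_p : InPl D (D.p 1) := D.p_up _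

lemma inPl_p' : InPl D (D.p' 1) := D.p'_up _

lemma inPl_comb {v w : Fin (2 + 1) → F} (a b : F) (hv : InPl D v) (hw : InPl D w) :
    InPl D (a • v + b • w) := by
  unfold InPl at hv hw ⊢
  rw [hadd_l D.hF, hsmul_l D.hF, hsmul_l D.hF, hv, hw, mul_zero, mul_zero, add_zero]

lemma coords (a b : F) : ⟪a • D.p 1 + b • D.p' 1, D.p' 1⟫ = a ∧ ⟪a • D.p 1 + b • D.p' 1, D.p 1⟫ = b := by
  constructor
  · rw [hadd_l D.hF, hsmul_l D.hF, hsmul_l D.hF, D.p_p', D.p'_iso]; ring
  · rw [hadd_l D.hF, hsmul_l D.hF, hsmul_l D.hF, D.p_iso, D.p'_p]; ring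

/-- Two independent vectors of the plane span it. -/
theorem span2 {v₁ v₂ w : Fin (2 + 1) → F} (h₁ : InPl D v₁) (h₂ : InPl D v₂) (h1 : v₁ ≠ 0)
    (hne : ∀ c : F, v₂ ≠ c • v₁) (hw : InPl D w) : ∃ α β : F, w = α • v₁ + β • v₂ := by
  obtain ⟨a₁, b₁, e₁⟩ : ∃ a b : F, v₁ = a • D.p 1 + b • D.p' 1 := ⟨_, _, inPl_eq D h₁⟩
  obtain ⟨a₂, b₂, e₂⟩ : ∃ a b : F, v₂ = a • D.p 1 + b • D.p' 1 := ⟨_, _, inPl_eq D h₂⟩
  obtain ⟨a, b, e⟩ : ∃ a b : F, w = a • D.p 1 + b • D.p' 1 := ⟨_, _, inPl_eq D hw⟩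
  by_cases hd : a₁ * b₂ - a₂ * b₁ = 0
  · exfalso
    by_cases hb : b₁ = 0
    · subst hb
      have ha : a₁ ≠ 0 := fun h => h1 (by rw [e₁, h, zero_smul, zero_smul, add_zero])
      rw [mul_zero, sub_zero, mul_eq_zero] at hd
      rw [hd.resolve_left ha, zero_smul, add_zero] at e₂
      rw [zero_smul, add_zero] at e₁
      exact hne (a₂ / a₁) (by rw [e₁, e₂, smul_smul, div_mul_cancel₀ _ ha])
    · refine hne (b₂ / b₁) ?_
      rw [e₁, e₂, smul_add, smul_smul, smul_smul, div_mul_cancel₀ _ hb]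
      congr 2
      rw [div_mul_eq_mul_div, eq_div_iff hb]
      linear_combination -hd
  refine ⟨(a * b₂ - a₂ * b) / (a₁ * b₂ - a₂ * b₁), (a₁ * b - a * b₁) / (a₁ * b₂ - a₂ * b₁), ?_⟩
  have eA : (a * b₂ - a₂ * b) / (a₁ * b₂ - a₂ * b₁) * a₁ + (a₁ * b - a * b₁) / (a₁ * b₂ - a₂ * b₁) * a₂ = a := by
    rw [div_mul_eq_mul_div, div_mul_eq_mul_div, ← add_div, div_eq_iff hd]; ring
  have eB : (a * b₂ - a₂ * b) / (a₁ * b₂ - a₂ * b₁) * b₁ + (a₁ * b - a * b₁) / (a₁ * b₂ - a₂ * b₁) * b₂ = b := by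
    rw [div_mul_eq_mul_div, div_mul_eq_mul_div, ← add_div, div_eq_iff hd]; ring
  rw [e, e₁, e₂]
  match_scalars
  · linear_combination -eA
  · linear_combination -eB

/-- The stabiliser of the plane. -/
def Wst : Subgroup (Cfsg.SU (2 + 1) F q) where
  carrier := {g | ∃ c : F, c ≠ 0 ∧ act g (u1 : Fin (2 + 1) → F) = c • u1}
  one_mem' := ⟨1, one_ne_zero, by rw [act_one, one_smul]⟩
  mul_mem' := by
    rintro g h ⟨a, ha0, ha⟩ ⟨b, hb0, hb⟩
    exact ⟨b * a, mul_ne_zero hb0 ha0, by rw [act_mul, hb, act_smul, ha, smul_smul]⟩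
  inv_mem' := by
    rintro g ⟨a, ha0, ha⟩
    refine ⟨a⁻¹, inv_ne_zero ha0, ?_⟩
    apply act_injective g
    rw [act_act_inv, act_smul, ha, smul_smul, inv_mul_cancel₀ ha0, one_smul]

lemma inPl_act {g : Cfsg.SU (2 + 1) F q} (hg : g ∈ Wst (q := q)) {v : Fin (2 + 1) → F} (hv : InPl D v) :
    InPl D (act g v) := by
  obtain ⟨c, hc0, hc⟩ := hg
  have h := form_act g v u1
  rw [hc, hsmul_r D.hF, hv, mul_eq_zero] at h
  exact h.resolve_left (pow_ne_zero q hc0)

/-- Acting as a scalar on the plane. -/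
def Sc (_D : Dat F q) (g : Cfsg.SU (2 + 1) F q) : Prop :=
  ∃ l : F, ∀ v, InPl _D v → act g v = l • v

/-- A representative vector of a point. -/
noncomputable def vec (x : X D) : Fin (2 + 1) → F := act x.out (D.p 1)

lemma vec_ne (x : X D) : vec D x ≠ 0 := act_ne_zero _ D.p_ne

lemma vec_iso (x : X D) : ⟪vec D x, vec D x⟫ = 0 := (form_act _ _ _).trans D.p_iso

lemma vec_mk (g : Cfsg.SU (2 + 1) F q) :
    ∃ c : F, c ≠ 0 ∧ vec D (QuotientGroup.mk g) = c • act g (D.p 1) := by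
  obtain ⟨h, hh⟩ := QuotientGroup.mk_out_eq_mul (pst D 1) g
  obtain ⟨c, hc0, hc⟩ := h.2
  exact ⟨c, hc0, by rw [vec, hh, act_mul, hc, act_smul]⟩

lemma vec_smul (g : Cfsg.SU (2 + 1) F q) (x : X D) :
    ∃ c : F, c ≠ 0 ∧ vec D (g • x) = c • act g (vec D x) := by
  obtain ⟨h, rfl⟩ := QuotientGroup.mk_surjective x
  obtain ⟨a, ha, e⟩ := vec_mk D h
  obtain ⟨b, hb, e'⟩ := vec_mk D (g * h)
  refine ⟨b / a, div_ne_zero hb ha, ?_⟩
  rw [show g • (QuotientGroup.mk h : X D) = QuotientGroup.mk (g * h) from rfl, e', e, act_smul, act_mul,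
    smul_smul, div_mul_cancel₀ _ ha]

lemma vec_inj {x y : X D} {c : F} (h : vec D x = c • vec D y) : x = y := by
  have hc : c ≠ 0 := fun e => vec_ne D x (by rw [h, e, zero_smul])
  rw [← QuotientGroup.out_eq' x, ← QuotientGroup.out_eq' y, QuotientGroup.eq]
  refine ⟨c⁻¹, inv_ne_zero hc, ?_⟩
  rw [act_mul]
  apply act_injective x.out
  show act x.out (act x.out⁻¹ (vec D y)) = _
  rw [act_act_inv, act_smul]
  show vec D y = c⁻¹ • vec D x
  rw [h, smul_smul, inv_mul_cancel₀ hc, one_smul]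

lemma vec_x0 : ∃ c : F, c ≠ 0 ∧ vec D (x0 D) = c • D.p 1 := by
  obtain ⟨c, hc, e⟩ := vec_mk D (1 : Cfsg.SU (2 + 1) F q)
  exact ⟨c, hc, by rw [x0, e, act_one]⟩

lemma exists_point {v : Fin (2 + 1) → F} (h0 : v ≠ 0) (hv : ⟪v, v⟫ = 0) :
    ∃ x : X D, ∃ c : F, c ≠ 0 ∧ vec D x = c • v := by
  have hmem : v ∈ orbit (Cfsg.SU (2 + 1) F q) (D.p 1) := by
    rw [orbit_eq_class D.hF (by norm_num) D.p_ne (Or.inr (by norm_num))]
    exact ⟨h0, by rw [hv, D.p_iso]⟩
  obtain ⟨g, hg⟩ := hmem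
  obtain ⟨c, hc, e⟩ := vec_mk D g
  exact ⟨QuotientGroup.mk g, c, hc, by rw [e]; congr 1⟩

/-- The points of the line. -/
abbrev L := {x : X D // InPl D (vec D x)}

/-- The base point on the line. -/
def y0 : L D := ⟨x0 D, by
  obtain ⟨c, -, e⟩ := vec_x0 D
  rw [e]
  have := inPl_comb D c 0 (inPl_p D) (inPl_p D)
  rwa [zero_smul, add_zero] at this⟩

lemma vec_skew {a : F} (ha : a + a ^ q = 0) :
    a • D.p 1 + D.p' 1 ≠ 0 ∧ ⟪a • D.p 1 + D.p' 1, a • D.p 1 + D.p' 1⟫ = 0 := by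
  refine ⟨fun h => ?_, ?_⟩
  · have := (coords D a 1).2
    rw [one_smul, h, hzero_l D.hF] at this
    exact zero_ne_one this
  · simp only [hadd_l D.hF, hadd_r D.hF, hsmul_l D.hF, hsmul_r D.hF, D.p_iso, D.p'_iso, D.p_p', D.p'_p]
    linear_combination ha

/-- The point with given parameter. -/
noncomputable def yS (a : skew D.hF) : L D :=
  ⟨(exists_point D (vec_skew D a.2).1 (vec_skew D a.2).2).choose, by
    obtain ⟨c, -, e⟩ := (exists_point D (vec_skew D a.2).1 (vec_skew D a.2).2).choose_spec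
    rw [e, smul_add, smul_smul]
    exact inPl_comb D _ _ (inPl_p D) (inPl_p' D)⟩

lemma vec_yS (a : skew D.hF) : ∃ c : F, c ≠ 0 ∧ vec D (yS D a).1 = c • (a.1 • D.p 1 + D.p' 1) :=
  (exists_point D (vec_skew D a.2).1 (vec_skew D a.2).2).choose_spec

lemma yS_ne (a : skew D.hF) : yS D a ≠ y0 D := by
  intro h
  obtain ⟨c, hc, e⟩ := vec_yS D a
  obtain ⟨d, -, e'⟩ := vec_x0 D
  rw [show (yS D a).1 = x0 D from congrArg Subtype.val h, e', smul_add, smul_smul] at e
  have h2 := congrArg (fun v => ⟪v, D.p 1⟫) e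
  simp only [(coords D _ c).2, hsmul_l D.hF, D.p_iso, mul_zero] at h2
  exact hc h2.symm

lemma yS_inj : Function.Injective (yS D) := by
  intro a b h
  obtain ⟨c, hc, e⟩ := vec_yS D a
  obtain ⟨d, hd, e'⟩ := vec_yS D b
  rw [h, e', smul_add, smul_smul, smul_add, smul_smul] at e
  have h1 := congrArg (fun v => ⟪v, D.p' 1⟫) e
  have h2 := congrArg (fun v => ⟪v, D.p 1⟫) e
  simp only [(coords D _ _).1] at h1
  simp only [(coords D _ _).2] at h2
  rw [h2] at h1
  exact Subtype.ext (mul_left_cancel₀ hc h1).symm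

lemma L_cases (x : L D) : x = y0 D ∨ ∃ a, x = yS D a := by
  obtain ⟨α, hα⟩ : ∃ α, α = ⟪vec D x.1, D.p' 1⟫ := ⟨_, rfl⟩
  obtain ⟨β, hβ⟩ : ∃ β, β = ⟪vec D x.1, D.p 1⟫ := ⟨_, rfl⟩
  have e : vec D x.1 = α • D.p 1 + β • D.p' 1 := by rw [hα, hβ]; exact inPl_eq D x.2
  by_cases hb : β = 0
  · left
    obtain ⟨c, hc, e'⟩ := vec_x0 D
    refine Subtype.ext (vec_inj D (c := α / c) ?_)
    show vec D x.1 = _ • vec D (x0 D)
    rw [e, hb, zero_smul, add_zero, e', smul_smul, div_mul_cancel₀ _ hc]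
  · right
    have hiso := vec_iso D x.1
    rw [e] at hiso
    simp only [hadd_l D.hF, hadd_r D.hF, hsmul_l D.hF, hsmul_r D.hF, D.p_iso, D.p'_iso, D.p_p',
      D.p'_p] at hiso
    have ha : α / β + (α / β) ^ q = 0 := by
      rw [div_pow, div_add_div _ _ hb (pow_ne_zero q hb), div_eq_zero_iff]
      left
      linear_combination hiso
    refine ⟨⟨α / β, ha⟩, Subtype.ext ?_⟩
    obtain ⟨c, hc, e'⟩ := vec_yS D ⟨α / β, ha⟩
    refine vec_inj D (c := β / c) ?_
    rw [e, e', smul_smul, div_mul_cancel₀ _ hc, smul_add, smul_smul, mul_div_cancel₀ _ hb]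

theorem card_L : Nat.card (L D) = q + 1 := by
  have hb : Function.Bijective (fun o : Option (skew D.hF) => o.elim (y0 D) (yS D)) := by
    constructor
    · rintro (_ | a) (_ | b) h
      · rfl
      · exact absurd h.symm (yS_ne D b)
      · exact absurd h (yS_ne D a)
      · exact congrArg some (yS_inj D h)
    · intro x
      rcases L_cases D x with rfl | ⟨a, rfl⟩
      exacts [⟨none, rfl⟩, ⟨some a, rfl⟩]
  rw [← Nat.card_eq_of_bijective _ hb, Finite.card_option, card_skew]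

variable (H : Subgroup (Cfsg.SU (2 + 1) F q))

/-- The part of `H` stabilising the line. -/
abbrev Mw : Subgroup (Cfsg.SU (2 + 1) F q) := H ⊓ Wst

instance instMulActionMwL : MulAction (Mw H) (L D) where
  smul g x := ⟨g.1 • x.1, by
    obtain ⟨c, -, e⟩ := vec_smul D g.1 x.1
    rw [e]
    have h1 := inPl_act D g.2.2 x.2
    have := inPl_comb D c 0 h1 h1
    rwa [zero_smul, add_zero] at this⟩
  one_smul x := Subtype.ext (one_smul _ x.1)
  mul_smul g h x := Subtype.ext (mul_smul g.1 h.1 x.1)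

lemma smul_L_val (g : Mw H) (x : L D) : (g • x).1 = g.1 • x.1 := rfl

/-- The permutations of the line. -/
noncomputable abbrev perm : Mw H →* Equiv.Perm (L D) := MulAction.toPermHom (Mw H) (L D)

/-- A fixed point gives an eigenvector. -/
lemma eigen_of_fix {g : Cfsg.SU (2 + 1) F q} {x : X D} (h : g • x = x) :
    ∃ l : F, act g (vec D x) = l • vec D x := by
  obtain ⟨c, hc, e⟩ := vec_smul D g x
  rw [h] at e
  refine ⟨c⁻¹, ?_⟩
  conv_rhs => rw [e, smul_smul, inv_mul_cancel₀ hc, one_smul]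

lemma fix_of_eigen {g : Cfsg.SU (2 + 1) F q} {x : X D} {l : F} (h : act g (vec D x) = l • vec D x) :
    g • x = x := by
  obtain ⟨c, -, e⟩ := vec_smul D g x
  rw [h, smul_smul] at e
  exact vec_inj D e

/-- Fixing three points of the line means scalar on the plane. -/
theorem sc_of_three {g : Mw H} {x y w : L D} (hxy : x ≠ y) (hxw : x ≠ w) (hyw : y ≠ w)
    (hx : g • x = x) (hy : g • y = y) (hw : g • w = w) : Sc D g.1 := by
  obtain ⟨l₁, e₁⟩ := eigen_of_fix D (congrArg Subtype.val hx)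
  obtain ⟨l₂, e₂⟩ := eigen_of_fix D (congrArg Subtype.val hy)
  obtain ⟨l₃, e₃⟩ := eigen_of_fix D (congrArg Subtype.val hw)
  have hne : ∀ c : F, vec D y.1 ≠ c • vec D x.1 := fun c h => hxy (Subtype.ext (vec_inj D h)).symm
  obtain ⟨α, β, e⟩ := span2 D x.2 y.2 (vec_ne D _) hne w.2
  have hα : α ≠ 0 := fun h => hyw (Subtype.ext (vec_inj D (x := w.1) (c := β)
    (by rw [e, h, zero_smul, zero_add]))).symm
  have hβ : β ≠ 0 := fun h => hxw (Subtype.ext (vec_inj D (x := w.1) (c := α)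
    (by rw [e, h, zero_smul, add_zero]))).symm
  have h := e₃
  rw [e, act_add, act_smul, act_smul, e₁, e₂, smul_smul, smul_smul, smul_add, smul_smul, smul_smul] at h
  have key : (α * l₁ - l₃ * α) • vec D x.1 + (β * l₂ - l₃ * β) • vec D y.1 = 0 := by
    rw [sub_smul, sub_smul, sub_add_sub_comm, h, sub_self]
  have hb : β * l₂ - l₃ * β = 0 := by
    by_contra hb
    refine hne (-((α * l₁ - l₃ * α) / (β * l₂ - l₃ * β))) ?_
    apply smul_right_injective _ hb
    simp only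
    rw [smul_smul, mul_neg, mul_div_cancel₀ _ hb, neg_smul, ← add_eq_zero_iff_eq_neg', key]
  rw [hb, zero_smul, add_zero, smul_eq_zero] at key
  have ha := key.resolve_right (vec_ne D _)
  have e31 : l₁ = l₃ := mul_left_cancel₀ hα (by linear_combination ha)
  have e32 : l₂ = l₃ := mul_left_cancel₀ hβ (by linear_combination hb)
  refine ⟨l₃, fun v hv => ?_⟩
  obtain ⟨a, b, rfl⟩ := span2 D x.2 y.2 (vec_ne D _) hne hv
  rw [act_add, act_smul, act_smul, e₁, e₂, e31, e32, smul_add, smul_comm a, smul_comm b]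

lemma perm_eq_one {g : Mw H} : perm D H g = 1 ↔ Sc D g.1 := by
  constructor
  · intro h
    have hf : ∀ x : L D, g • x = x := fun x => DFunLike.congr_fun h x
    obtain ⟨a, ha⟩ : ∃ a : skew D.hF, a.1 ≠ 0 := by
      by_contra hne
      push Not at hne
      have : Nat.card (skew D.hF) ≤ 1 :=
        (Finite.card_le_one_iff_subsingleton).mpr ⟨fun a b => Subtype.ext ((hne a).trans (hne b).symm)⟩
      rw [card_skew] at this
      have := H3.two_le_q D.hF
      omega
    refine sc_of_three D H (yS_ne D 0).symm (yS_ne D a).symm ?_ (hf _) (hf _) (hf _)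
    exact fun e => ha (congrArg Subtype.val (yS_inj D e)).symm
  · rintro ⟨l, hl⟩
    exact Equiv.ext fun x => Subtype.ext (fix_of_eigen D (hl _ x.2))

/-- No fixed point on the line. -/
def NF (g : Mw H) : Prop := ∀ x : L D, g • x ≠ x

/-- The centraliser on the plane. -/
def Cw (g : Mw H) : Subgroup (Mw H) where
  carrier := {h | ∀ v, InPl D v → act h.1 (act g.1 v) = act g.1 (act h.1 v)}
  one_mem' v _ := by simp [act_one]
  mul_mem' {a b} ha hb v hv := by
    show act (a.1 * b.1) _ = act g.1 (act (a.1 * b.1) v)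
    rw [act_mul, act_mul, hb v hv, ha _ (inPl_act D b.2.2 hv)]
  inv_mem' {a} ha v hv := by
    show act a.1⁻¹ _ = act g.1 (act a.1⁻¹ v)
    apply act_injective a.1
    rw [act_act_inv, ha _ (inPl_act D (Subgroup.inv_mem _ a.2.2) hv), act_act_inv]

lemma mem_Cw {g h : Mw H} :
    h ∈ Cw D H g ↔ ∀ v, InPl D v → act h.1 (act g.1 v) = act g.1 (act h.1 v) := Iff.rfl

lemma self_mem_Cw (g : Mw H) : g ∈ Cw D H g := fun _ _ => rfl

variable {D H}

lemma gp_ne {g : Mw H} (hg : NF D H g) (c : F) : act g.1 (D.p 1) ≠ c • D.p 1 := fun h => by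
  obtain ⟨d, hd, e⟩ := vec_x0 D
  refine hg (y0 D) (Subtype.ext (fix_of_eigen D (l := c) ?_))
  show act g.1 (vec D (x0 D)) = c • vec D (x0 D)
  rw [e, act_smul, h, smul_comm]

lemma nf_basis {g : Mw H} (hg : NF D H g) {v : Fin (2 + 1) → F} (hv : InPl D v) :
    ∃ a b : F, v = a • D.p 1 + b • act g.1 (D.p 1) :=
  span2 D (inPl_p D) (inPl_act D g.2.2 (inPl_p D)) D.p_ne (gp_ne hg) hv

lemma indep {g : Mw H} (hg : NF D H g) {a b : F} (h : a • D.p 1 + b • act g.1 (D.p 1) = 0) :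
    a = 0 ∧ b = 0 := by
  have hb : b = 0 := by
    by_contra hb
    refine gp_ne hg (-(a / b)) (smul_right_injective _ hb ?_)
    simp only
    rw [smul_smul, mul_neg, mul_div_cancel₀ _ hb, neg_smul, ← add_eq_zero_iff_eq_neg', h]
  rw [hb, zero_smul, add_zero, smul_eq_zero] at h
  exact ⟨h.resolve_right D.p_ne, hb⟩

/-- The centraliser consists of linear expressions in the element. -/
lemma cw_linear {g h : Mw H} (hg : NF D H g) (hh : h ∈ Cw D H g) :
    ∃ a b : F, ∀ v, InPl D v → act h.1 v = a • v + b • act g.1 v := by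
  obtain ⟨a, b, e⟩ := nf_basis hg (inPl_act D h.2.2 (inPl_p D))
  refine ⟨a, b, fun v hv => ?_⟩
  obtain ⟨c, d, rfl⟩ := nf_basis hg hv
  rw [act_add, act_smul, act_smul, hh _ (inPl_p D), e]
  simp only [act_add, act_smul]
  module

/-- A non-scalar element of a centraliser has no fixed point and the same centraliser. -/
lemma cw_free {g h : Mw H} (hg : NF D H g) (hh : h ∈ Cw D H g) (h1 : perm D H h ≠ 1) :
    NF D H h ∧ Cw D H h = Cw D H g := by
  obtain ⟨a, b, e⟩ := cw_linear hg hh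
  have hb : b ≠ 0 := fun hb => h1 ((perm_eq_one D H).mpr ⟨a, fun v hv => by
    rw [e v hv, hb, zero_smul, add_zero]⟩)
  refine ⟨fun x hx => ?_, ?_⟩
  · obtain ⟨l, el⟩ := eigen_of_fix D (congrArg Subtype.val hx)
    rw [e _ x.2] at el
    refine hg x (Subtype.ext (fix_of_eigen D (l := (l - a) / b) ?_))
    apply smul_right_injective _ hb
    simp only
    rw [smul_smul, mul_div_cancel₀ _ hb, sub_smul, eq_sub_iff_add_eq', el]
  · ext k
    rw [mem_Cw, mem_Cw]
    constructor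
    · intro hk v hv
      have := hk v hv
      rw [e v hv, e _ (inPl_act D k.2.2 hv), act_add, act_smul, act_smul, add_right_inj] at this
      exact smul_right_injective _ hb this
    · intro hk v hv
      rw [e v hv, e _ (inPl_act D k.2.2 hv), act_add, act_smul, act_smul, hk v hv]

/-- The square of an element without fixed points is a linear expression in it, not a degenerate one. -/
lemma quad {g : Mw H} (hg : NF D H g) :
    ∃ R T : F, (∀ v, InPl D v → act g.1 (act g.1 v) = R • v + T • act g.1 v) ∧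
      ∀ r : F, r + r = T → R ≠ -(r * r) := by
  obtain ⟨R, T, hRT⟩ := nf_basis hg (inPl_act D g.2.2 (inPl_act D g.2.2 (inPl_p D)))
  have hq : ∀ v, InPl D v → act g.1 (act g.1 v) = R • v + T • act g.1 v := by
    intro v hv
    obtain ⟨c, d, rfl⟩ := nf_basis hg hv
    simp only [act_add, act_smul, hRT]
    module
  refine ⟨R, T, hq, fun r hr hR => ?_⟩
  set v := act g.1 (D.p 1) - r • D.p 1 with hv
  have hvW : InPl D v := by
    have := inPl_comb D 1 (-r) (inPl_act D g.2.2 (inPl_p D)) (inPl_p D)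
    rwa [one_smul, neg_smul, ← sub_eq_add_neg] at this
  have hv0 : v ≠ 0 := fun h => gp_ne hg r (sub_eq_zero.mp h)
  have hgv : act g.1 v = r • v := by
    rw [hv, act_sub, act_smul, hRT, hR, ← hr]
    module
  by_cases hiso : ⟪v, v⟫ = 0
  · obtain ⟨x, c, hc, e⟩ := exists_point D hv0 hiso
    have hx : InPl D (vec D x) := by
      rw [e]
      have := inPl_comb D c 0 hvW hvW
      rwa [zero_smul, add_zero] at this
    exact hg ⟨x, hx⟩ (Subtype.ext (fix_of_eigen D (l := r) (by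
      show act g.1 (vec D x) = r • vec D x
      rw [e, act_smul, hgv, smul_comm])))
  obtain ⟨s, hs⟩ : ∃ s, s = ⟪D.p 1, v⟫ := ⟨_, rfl⟩
  obtain ⟨t, ht⟩ : ∃ t, t = ⟪D.p' 1, v⟫ := ⟨_, rfl⟩
  set w := t • D.p 1 + (-s) • D.p' 1 with hw
  have hwW : InPl D w := inPl_comb D _ _ (inPl_p D) (inPl_p' D)
  have hst : s ≠ 0 ∨ t ≠ 0 := by
    by_contra h
    push Not at h
    refine hiso ?_
    obtain ⟨a, b, e⟩ : ∃ a b : F, v = a • D.p 1 + b • D.p' 1 := ⟨_, _, inPl_eq D hvW⟩
    have h1 : ⟪v, v⟫ = a * s + b * t := by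
      rw [hs, ht]
      conv_lhs => arg 4; rw [e]
      rw [hadd_l D.hF, hsmul_l D.hF, hsmul_l D.hF]
    rw [h1, h.1, h.2, mul_zero, mul_zero, add_zero]
  have hwv : ⟪w, v⟫ = 0 := by
    rw [hw, hadd_l D.hF, hsmul_l D.hF, hsmul_l D.hF, ← hs, ← ht]; ring
  have hw0 : w ≠ 0 := fun h => by
    obtain ⟨e1, e2⟩ := coords D t (-s)
    rw [← hw, h, hzero_l D.hF] at e1 e2
    rcases hst with h' | h'
    · exact h' (neg_eq_zero.mp e2.symm)
    · exact h' e1.symm
  have horth : ∀ u, InPl D u → ⟪u, v⟫ = 0 → ∃ μ : F, u = μ • w := by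
    intro u hu huv
    obtain ⟨a, b, e⟩ : ∃ a b : F, u = a • D.p 1 + b • D.p' 1 := ⟨_, _, inPl_eq D hu⟩
    rw [e, hadd_l D.hF, hsmul_l D.hF, hsmul_l D.hF, ← hs, ← ht] at huv
    by_cases ht0 : t = 0
    · have hs0 := hst.resolve_right (fun h => h ht0)
      rw [ht0, mul_zero, add_zero, mul_eq_zero] at huv
      refine ⟨-(b / s), ?_⟩
      rw [hw, e, huv.resolve_right hs0, ht0]
      simp [smul_smul, div_mul_cancel₀ _ hs0]
    · refine ⟨a / t, ?_⟩
      rw [hw, e, smul_add, smul_smul, smul_smul, div_mul_cancel₀ _ ht0]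
      congr 2
      rw [div_mul_eq_mul_div, eq_div_iff ht0]
      linear_combination huv
  have hr0 : r ≠ 0 := fun h => by
    rw [h, zero_smul] at hgv
    exact act_ne_zero g.1 hv0 hgv
  obtain ⟨μ, hμ⟩ := horth _ (inPl_act D g.2.2 hwW) (by
    have := form_act g.1 w v
    rw [hgv, hsmul_r D.hF, hwv, mul_eq_zero] at this
    exact this.resolve_left (pow_ne_zero q hr0))
  have hμr : μ = r := by
    have h2 := hq w hwW
    rw [hμ, act_smul, hμ, smul_smul, smul_smul, ← add_smul, hR, ← hr] at h2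
    have h3 := smul_left_injective F hw0 h2
    exact sub_eq_zero.mp (mul_self_eq_zero.mp (by linear_combination h3))
  have hne : ∀ c : F, w ≠ c • v := fun c hc => by
    rw [hc, hsmul_l D.hF, mul_eq_zero] at hwv
    rcases hwv with h | h
    · exact hw0 (by rw [hc, h, zero_smul])
    · exact hiso h
  have hsc : Sc D g.1 := ⟨r, fun u hu => by
    obtain ⟨a, b, rfl⟩ := span2 D hvW hwW hv0 hne hu
    rw [act_add, act_smul, act_smul, hgv, hμ, hμr]
    module⟩
  exact hg (y0 D) (DFunLike.congr_fun ((perm_eq_one D H).mpr hsc) (y0 D))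

/-- The two possibilities for a conjugate inside the centraliser. -/
lemma conj_cases {g k : Mw H} (hg : NF D H g) {R T : F}
    (hq : ∀ v, InPl D v → act g.1 (act g.1 v) = R • v + T • act g.1 v)
    (hdeg : ∀ r : F, r + r = T → R ≠ -(r * r))
    (hk : ∀ v, InPl D v → act k.1 (act k.1 v) = R • v + T • act k.1 v)
    (hkC : k ∈ Cw D H g) (hk1 : perm D H k ≠ 1) :
    (∀ v, InPl D v → act k.1 v = act g.1 v) ∨
      ∀ v, InPl D v → act k.1 v = T • v - act g.1 v := by
  obtain ⟨a, b, e⟩ := cw_linear hg hkC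
  have hb : b ≠ 0 := fun hb => hk1 ((perm_eq_one D H).mpr ⟨a, fun v hv => by
    rw [e v hv, hb, zero_smul, add_zero]⟩)
  have h := hk _ (inPl_p D)
  rw [e _ (inPl_p D), act_add, act_smul, act_smul, e _ (inPl_p D), e _ (inPl_act D g.2.2 (inPl_p D)),
    hq _ (inPl_p D)] at h
  have h' : (a * a + b * b * R - (R + T * a)) • D.p 1 +
      (a * b + b * a + b * b * T - T * b) • act g.1 (D.p 1) = 0 := by
    rw [← sub_eq_zero.mpr h]
    module
  obtain ⟨h1, h2⟩ := indep hg h'
  have h2' : a + a = T * (1 - b) := mul_left_cancel₀ hb (by linear_combination h2)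
  have hsol : (b = 1 ∧ a = 0) ∨ (b = -1 ∧ a = T) := by
    by_cases h20 : (2 : F) = 0
    · have hT : T * (1 - b) = 0 := by linear_combination (-1 : F) * h2' + a * h20
      rcases mul_eq_zero.mp hT with hT0 | hb1
      · exfalso
        obtain ⟨r, hr⟩ : IsSquare R := by
          have : CharP F 2 := by
            refine CharP.charP_iff_prime_eq_zero Nat.prime_two |>.mpr ?_
            exact_mod_cast h20
          exact FiniteField.isSquare_of_char_two (ringChar.eq_iff.mpr this) R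
        refine hdeg r ?_ ?_
        · rw [hT0]; linear_combination r * h20
        · rw [hr]; linear_combination (r * r) * h20
      · have hb1' : b = 1 := (sub_eq_zero.mp hb1).symm
        subst hb1'
        have : a * (a - T) = 0 := by linear_combination h1
        rcases mul_eq_zero.mp this with ha | ha
        · exact Or.inl ⟨rfl, ha⟩
        · exact Or.inr ⟨by linear_combination h20, sub_eq_zero.mp ha⟩
    · have hnd := hdeg (T / 2) (by field_simp; ring)
      have key : (b * b - 1) * (R + T / 2 * (T / 2)) = 0 := by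
        have e2 : a = T * (1 - b) / 2 := by
          rw [eq_div_iff h20]; linear_combination h2'
        rw [e2] at h1
        field_simp at h1 ⊢
        linear_combination h1
      have hb2 : b * b = 1 := by
        rcases mul_eq_zero.mp key with h | h
        · exact sub_eq_zero.mp h
        · exact absurd (eq_neg_of_add_eq_zero_left h) hnd
      rcases mul_self_eq_one_iff.mp hb2 with hb1 | hb1
      · refine Or.inl ⟨hb1, ?_⟩
        rw [hb1, sub_self, mul_zero, ← two_mul, mul_eq_zero] at h2'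
        exact h2'.resolve_left h20
      · refine Or.inr ⟨hb1, mul_left_cancel₀ h20 ?_⟩
        rw [hb1] at h2'
        linear_combination h2'
  rcases hsol with ⟨hb1, ha⟩ | ⟨hb1, ha⟩
  · left; intro v hv; rw [e v hv, hb1, ha, zero_smul, zero_add, one_smul]
  · right; intro v hv; rw [e v hv, hb1, ha, neg_smul, one_smul, ← sub_eq_add_neg]

end Cfsg.Agent.H2.MinU.S3
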